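import Mathlib

/-!
Groups covered by the conjugates of two proper subgroups.
-/

set_option autoImplicit false

namespace Cfsg.Agent.Cov44

/-- covered by the conjugates of two proper subgroups -/
def Cov (G : Type*) [Group G] : Prop :=
  ∃ H K : Subgroup G, H ≠ ⊤ ∧ K ≠ ⊤ ∧ ∀ g : G, ∃ x : G, x * g * x⁻¹ ∈ H ∨ x * g * x⁻¹ ∈ K

theorem map_ne_top {G : Type*} [Group G] (N : Subgroup G) [N.Normal] (H : Subgroup G) (hH : H ≠ ⊤) (hN : N ≤ H) :
    H.map (QuotientGroup.mk' N) ≠ ⊤ := by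
  intro h
  apply hH
  rw [eq_top_iff]
  intro x _
  have hx : QuotientGroup.mk' N x ∈ H.map (QuotientGroup.mk' N) := by rw [h]; trivial
  obtain ⟨y, hy, hxy⟩ := Subgroup.mem_map.1 hx
  have h1 : y⁻¹ * x ∈ N := QuotientGroup.eq.1 hxy
  have h2 := H.mul_mem hy (hN h1)
  rwa [mul_inv_cancel_left] at h2

theorem cov_quot {G : Type*} [Group G] (N : Subgroup G) [N.Normal] (H K : Subgroup G) (hH : H ≠ ⊤) (hK : K ≠ ⊤)
    (hNH : N ≤ H) (hNK : N ≤ K) (h : ∀ g : G, ∃ x : G, x * g * x⁻¹ ∈ H ∨ x * g * x⁻¹ ∈ K) : Cov (G ⧸ N) := by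
  refine ⟨H.map (QuotientGroup.mk' N), K.map (QuotientGroup.mk' N), map_ne_top N H hH hNH, map_ne_top N K hK hNK, ?_⟩
  intro g
  obtain ⟨g, rfl⟩ := QuotientGroup.mk'_surjective N g
  obtain ⟨x, hx⟩ := h g
  refine ⟨QuotientGroup.mk' N x, ?_⟩
  rcases hx with hx | hx
  · left
    exact ⟨_, hx, by simp only [map_mul, map_inv]⟩
  · right
    exact ⟨_, hx, by simp only [map_mul, map_inv]⟩

end Cfsg.Agent.Cov44
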