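import Cfsg.Agent.H53.SEAG2

/-!
Automorphisms of the split octonions: the action of `SL_3` and transitivity on elements of trace one (characteristic two).
-/

set_option autoImplicit false

namespace Cfsg.Agent.Cov44

open Matrix Cfsg.Agent.H53.SEA Cfsg.Lie

namespace Oct

section

variable {F : Type*} [Field F]

/-- the linear map attached to three vectors -/
def Lf (p q r : Fin 3 → F) (x : Fin 8 → F) : Fin 8 → F :=
  ![x 0, x 1 * p 0 + x 2 * q 0 + x 3 * r 0, x 1 * p 1 + x 2 * q 1 + x 3 * r 1, x 1 * p 2 + x 2 * q 2 + x 3 * r 2,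
    x 4 * (q 1 * r 2 - q 2 * r 1) + x 5 * (r 1 * p 2 - r 2 * p 1) + x 6 * (p 1 * q 2 - p 2 * q 1),
    x 4 * (q 2 * r 0 - q 0 * r 2) + x 5 * (r 2 * p 0 - r 0 * p 2) + x 6 * (p 2 * q 0 - p 0 * q 2),
    x 4 * (q 0 * r 1 - q 1 * r 0) + x 5 * (r 0 * p 1 - r 1 * p 0) + x 6 * (p 0 * q 1 - p 1 * q 0), x 7]

/-- the determinant -/
def dt (p q r : Fin 3 → F) : F :=
  p 0 * (q 1 * r 2 - q 2 * r 1) + p 1 * (q 2 * r 0 - q 0 * r 2) + p 2 * (q 0 * r 1 - q 1 * r 0)

theorem Lf_mul {p q r : Fin 3 → F} (h : dt p q r = 1) (x y : Fin 8 → F) :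
    Lf p q r (zornMul x y) = zornMul (Lf p q r x) (Lf p q r y) := by
  unfold dt at h
  funext i
  fin_cases i
  · simp [Lf, zornMul, dot3, cross3, zA, zB]
    linear_combination (-(x 1 * y 4 + x 2 * y 5 + x 3 * y 6)) * h
  · simp [Lf, zornMul, dot3, cross3, zA, zB]
    linear_combination ((x 5 * y 6 - x 6 * y 5) * p 0 + (x 6 * y 4 - x 4 * y 6) * q 0 + (x 4 * y 5 - x 5 * y 4) * r 0) * h
  · simp [Lf, zornMul, dot3, cross3, zA, zB]
    linear_combination ((x 5 * y 6 - x 6 * y 5) * p 1 + (x 6 * y 4 - x 4 * y 6) * q 1 + (x 4 * y 5 - x 5 * y 4) * r 1) * h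
  · simp [Lf, zornMul, dot3, cross3, zA, zB]
    linear_combination ((x 5 * y 6 - x 6 * y 5) * p 2 + (x 6 * y 4 - x 4 * y 6) * q 2 + (x 4 * y 5 - x 5 * y 4) * r 2) * h
  · simp [Lf, zornMul, dot3, cross3, zA, zB]
    ring
  · simp [Lf, zornMul, dot3, cross3, zA, zB]
    ring
  · simp [Lf, zornMul, dot3, cross3, zA, zB]
    ring
  · simp [Lf, zornMul, dot3, cross3, zA, zB]
    linear_combination (-(x 4 * y 1 + x 5 * y 2 + x 6 * y 3)) * h

theorem Lf_inj {p q r : Fin 3 → F} (h : dt p q r = 1) {x : Fin 8 → F} (hx : Lf p q r x = 0) : x = 0 := by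
  unfold dt at h
  have h0 := congrFun hx 0
  have h1 := congrFun hx 1
  have h2 := congrFun hx 2
  have h3 := congrFun hx 3
  have h4 := congrFun hx 4
  have h5 := congrFun hx 5
  have h6 := congrFun hx 6
  have h7 := congrFun hx 7
  simp [Lf] at h0 h1 h2 h3 h4 h5 h6 h7
  funext i
  fin_cases i
  · simpa using h0
  · simp
    linear_combination (q 1 * r 2 - q 2 * r 1) * h1 + (q 2 * r 0 - q 0 * r 2) * h2 + (q 0 * r 1 - q 1 * r 0) * h3 - x 1 * h
  · simp
    linear_combination (r 1 * p 2 - r 2 * p 1) * h1 + (r 2 * p 0 - r 0 * p 2) * h2 + (r 0 * p 1 - r 1 * p 0) * h3 - x 2 * h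
  · simp
    linear_combination (p 1 * q 2 - p 2 * q 1) * h1 + (p 2 * q 0 - p 0 * q 2) * h2 + (p 0 * q 1 - p 1 * q 0) * h3 - x 3 * h
  · simp
    linear_combination p 0 * h4 + p 1 * h5 + p 2 * h6 - x 4 * h
  · simp
    linear_combination q 0 * h4 + q 1 * h5 + q 2 * h6 - x 5 * h
  · simp
    linear_combination r 0 * h4 + r 1 * h5 + r 2 * h6 - x 6 * h
  · simpa using h7

/-- the linear map -/
def Ll (p q r : Fin 3 → F) : (Fin 8 → F) →ₗ[F] (Fin 8 → F) where
  toFun := Lf p q r
  map_add' x y := by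
    funext i
    fin_cases i <;> simp [Lf] <;> ring
  map_smul' c x := by
    funext i
    fin_cases i <;> simp [Lf] <;> ring

/-- the same orbit -/
def Rel (e e' : OO F) : Prop := ∃ g ∈ AutO F, g e = e'

theorem Rel.symm {e e' : OO F} (h : Rel e e') : Rel e' e := by
  obtain ⟨g, hg, rfl⟩ := h
  exact ⟨g⁻¹, (AutO F).inv_mem hg, g.symm_apply_apply e⟩

theorem Rel.trans {e e' e'' : OO F} (h : Rel e e') (h' : Rel e' e'') : Rel e e'' := by
  obtain ⟨g, hg, rfl⟩ := h
  obtain ⟨k, hk, rfl⟩ := h'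
  exact ⟨k * g, (AutO F).mul_mem hk hg, rfl⟩

theorem rel_Lf {p q r : Fin 3 → F} (h : dt p q r = 1) (x : Fin 8 → F) :
    Rel ((EE F).symm (Lf p q r x)) ((EE F).symm x) := by
  have hinj : Function.Injective (Ll p q r) := by
    rw [injective_iff_map_eq_zero]
    intro x hx
    exact Lf_inj h hx
  let L : (Fin 8 → F) ≃ₗ[F] (Fin 8 → F) := LinearEquiv.ofInjectiveEndo (Ll p q r) hinj
  have hL : ∀ x, L x = Lf p q r x := fun x => rfl
  apply Rel.symm
  refine ⟨autCongr (EE F) L, ?_, ?_⟩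
  · intro u v
    apply (EE F).injective
    rw [autCongr_apply, autCongr_apply, autCongr_apply, EE_om, LinearEquiv.apply_symm_apply, EE_om, LinearEquiv.apply_symm_apply,
      LinearEquiv.apply_symm_apply, hL, hL, hL, Lf_mul h]
  · rw [autCongr_apply, LinearEquiv.apply_symm_apply, hL]

theorem EE_symm (x : Fin 8 → F) : (EE F).symm x = (!![x 0, x 1; x 4, x 7], !![x 2, x 6; - x 3, x 5]) := rfl

/-- the canonical element -/
def Cn (ν : F) : OO F := (!![0, -ν; 1, 1], 0)

/-- the trace -/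
def tr (u : OO F) : F := u.1 0 0 + u.1 1 1

/-- the norm -/
def nm (u : OO F) : F := u.1.det - u.2.det

theorem rel_M2 {α a b β x y : F} (htr : α + β = 1) (hd : x * (b * x + β * y) - (α * x + a * y) * y ≠ 0) :
    Rel (!![α, a; b, β], (0 : Matrix (Fin 2) (Fin 2) F)) (Cn (α * β - a * b)) := by
  apply Rel.symm
  let P : GL (Fin 2) F := GeneralLinearGroup.mkOfDetNeZero !![x, α * x + a * y; y, b * x + β * y] (by
    rw [det_fin_two_of]; exact hd)
  have hP : (P : Matrix (Fin 2) (Fin 2) F) = !![x, α * x + a * y; y, b * x + β * y] := rfl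
  refine ⟨phiL P P, phiL_mem P P rfl, ?_⟩
  rw [phiL_apply]
  apply Prod.ext
  · have h1 : (P : Matrix (Fin 2) (Fin 2) F) * !![0, -(α * β - a * b); 1, 1] = !![α, a; b, β] * (P : Matrix (Fin 2) (Fin 2) F) := by
      rw [hP]
      simp only [Matrix.mul_fin_two]
      ext i j
      fin_cases i <;> fin_cases j
      · simp
      · simp
        linear_combination -(α * x + a * y) * htr
      · simp
      · simp
        linear_combination -(b * x + β * y) * htr
    change (P : Matrix (Fin 2) (Fin 2) F) * !![0, -(α * β - a * b); 1, 1] * ((P⁻¹ : GL (Fin 2) F) : Matrix (Fin 2) (Fin 2) F) = !![α, a; b, β]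
    rw [h1, Matrix.mul_assoc, gl_mul_inv, Matrix.mul_one]
  · change (P : Matrix (Fin 2) (Fin 2) F) * (0 : Matrix (Fin 2) (Fin 2) F) * ((P⁻¹ : GL (Fin 2) F) : Matrix (Fin 2) (Fin 2) F) = 0
    rw [Matrix.mul_zero, Matrix.zero_mul]

theorem rel_M2' [CharP F 2] {α a b β : F} (htr : α + β = 1) :
    Rel (!![α, a; b, β], (0 : Matrix (Fin 2) (Fin 2) F)) (Cn (α * β - a * b)) := by
  by_cases hb : b = 0
  · by_cases ha : a = 0
    · apply rel_M2 (x := 1) (y := 1) htr
      rw [ha, hb]
      have h2 : (1 : F) + 1 = 0 := CharTwo.add_self_eq_zero 1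
      have : 1 * (0 * 1 + β * 1) - (α * 1 + 0 * 1) * 1 = (1 : F) := by linear_combination htr - α * h2
      rw [this]
      exact one_ne_zero
    · apply rel_M2 (x := 0) (y := 1) htr
      have : 0 * (b * 0 + β * 1) - (α * 0 + a * 1) * 1 = - a := by ring
      rw [this]
      exact neg_ne_zero.2 ha
  · apply rel_M2 (x := 1) (y := 0) htr
    have : 1 * (b * 1 + β * 0) - (α * 1 + a * 0) * 0 = b := by ring
    rw [this]
    exact hb

theorem exists_cross {b : Fin 3 → F} (hb : b ≠ 0) : ∃ q r : Fin 3 → F,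
    q 1 * r 2 - q 2 * r 1 = b 0 ∧ q 2 * r 0 - q 0 * r 2 = b 1 ∧ q 0 * r 1 - q 1 * r 0 = b 2 := by
  by_cases h0 : b 0 = 0
  · by_cases h1 : b 1 = 0
    · have h2 : b 2 ≠ 0 := by
        intro h2
        apply hb
        funext i
        fin_cases i
        · exact h0
        · exact h1
        · exact h2
      refine ⟨![b 2, 0, 0], ![0, 1, 0], ?_, ?_, ?_⟩ <;> simp [h0, h1]
    · refine ⟨![0, - b 2, b 1], ![1, 0, 0], ?_, ?_, ?_⟩
      · simp [h0]
      · simp
      · simp
  · refine ⟨![- b 1 / b 0, 1, 0], ![- b 2, 0, b 0], ?_, ?_, ?_⟩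
    · simp
    · simp; field_simp
    · simp

theorem exists_dual {b : Fin 3 → F} (hb : b ≠ 0) (c : F) : ∃ a : Fin 3 → F, a 0 * b 0 + a 1 * b 1 + a 2 * b 2 = c := by
  by_cases h0 : b 0 = 0
  · by_cases h1 : b 1 = 0
    · have h2 : b 2 ≠ 0 := by
        intro h2
        apply hb
        funext i
        fin_cases i
        · exact h0
        · exact h1
        · exact h2
      exact ⟨![0, 0, c / b 2], by simp [h2]⟩
    · exact ⟨![0, c / b 1, 0], by simp [h1]⟩
  · exact ⟨![c / b 0, 0, 0], by simp [h0]⟩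

theorem exists_perp {a b : Fin 3 → F} (ha : a ≠ 0) (h : a 0 * b 0 + a 1 * b 1 + a 2 * b 2 = 0) : ∃ r : Fin 3 → F,
    r 1 * a 2 - r 2 * a 1 = b 0 ∧ r 2 * a 0 - r 0 * a 2 = b 1 ∧ r 0 * a 1 - r 1 * a 0 = b 2 := by
  by_cases h0 : a 0 = 0
  · by_cases h1 : a 1 = 0
    · have h2 : a 2 ≠ 0 := by
        intro h2
        apply ha
        funext i
        fin_cases i
        · exact h0
        · exact h1
        · exact h2
      rw [h0, h1, zero_mul, zero_mul, zero_add, zero_add] at h
      have h3 := (mul_eq_zero.1 h).resolve_left h2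
      refine ⟨![- b 1 / a 2, b 0 / a 2, 0], ?_, ?_, ?_⟩
      · simp [h2]
      · simp [h2]
      · simp [h0, h1, h3]
    · refine ⟨![b 2 / a 1, 0, - b 0 / a 1], ?_, ?_, ?_⟩
      · simp [h1]
      · simp [h0]
        rw [h0, zero_mul, zero_add] at h
        field_simp
        linear_combination -h
      · simp [h1]
  · refine ⟨![0, - b 2 / a 0, b 1 / a 0], ?_, ?_, ?_⟩
    · simp
      field_simp
      linear_combination -h
    · simp [h0]
    · simp [h0]

/-- the norm in coordinates -/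
theorem nm_EE (x : Fin 8 → F) : nm ((EE F).symm x) = x 0 * x 7 - (x 1 * x 4 + x 2 * x 5 + x 3 * x 6) := by
  rw [EE_symm, nm, det_fin_two_of, det_fin_two_of]
  ring

theorem tr_EE (x : Fin 8 → F) : tr ((EE F).symm x) = x 0 + x 7 := rfl

/-- the case of nonorthogonal vectors -/
theorem rel_ne [CharP F 2] (x : Fin 8 → F) (htr : x 0 + x 7 = 1) (h : x 1 * x 4 + x 2 * x 5 + x 3 * x 6 ≠ 0) :
    Rel ((EE F).symm x) (Cn (nm ((EE F).symm x))) := by
  set c := x 1 * x 4 + x 2 * x 5 + x 3 * x 6 with hc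
  have hb : (![x 4 / c, x 5 / c, x 6 / c] : Fin 3 → F) ≠ 0 := by
    intro h0
    apply h
    have h4 : x 4 / c = 0 := congrFun h0 0
    have h5 : x 5 / c = 0 := congrFun h0 1
    have h6 : x 6 / c = 0 := congrFun h0 2
    rw [div_eq_zero_iff] at h4 h5 h6
    rw [hc, h4.resolve_right h, h5.resolve_right h, h6.resolve_right h]
    ring
  obtain ⟨q, r, e0, e1, e2⟩ := exists_cross hb
  simp only [Matrix.cons_val_zero, Matrix.cons_val_one, Matrix.cons_val] at e0 e1 e2
  let p : Fin 3 → F := ![x 1, x 2, x 3]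
  have hdt : dt p q r = 1 := by
    rw [dt, e0, e1, e2]
    change x 1 * (x 4 / c) + x 2 * (x 5 / c) + x 3 * (x 6 / c) = 1
    field_simp
    rw [hc]
  have hx : x = Lf p q r ![x 0, 1, 0, 0, c, 0, 0, x 7] := by
    funext i
    fin_cases i
    · simp [Lf]
    · simp [Lf, p]
    · simp [Lf, p]
    · simp [Lf, p]
    · simp [Lf, e0]; field_simp
    · simp [Lf, e1]; field_simp
    · simp [Lf, e2]; field_simp
    · simp [Lf]
  have h1 := rel_Lf hdt (![x 0, 1, 0, 0, c, 0, 0, x 7] : Fin 8 → F)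
  rw [← hx] at h1
  refine h1.trans ?_
  have h2 := rel_M2' (α := x 0) (a := 1) (b := c) (β := x 7) htr
  have h3 : nm ((EE F).symm x) = x 0 * x 7 - 1 * c := by rw [nm_EE, one_mul, hc]
  rw [h3]
  have h4 : (EE F).symm (![x 0, 1, 0, 0, c, 0, 0, x 7] : Fin 8 → F) = (!![x 0, 1; c, x 7], (0 : Matrix (Fin 2) (Fin 2) F)) := by
    rw [EE_symm]
    apply Prod.ext
    · simp
    · ext i j
      fin_cases i <;> fin_cases j <;> simp
  rw [h4]
  exact h2

/-- **transitivity** -/
theorem rel_Cn [CharP F 2] {t : F} (ht0 : t ≠ 0) (ht1 : t ≠ 1) (e : OO F) (he : tr e = 1) : Rel e (Cn (nm e)) := by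
  obtain ⟨x, rfl⟩ := (EE F).symm.surjective e
  have h2 : (1 : F) + 1 = 0 := CharTwo.add_self_eq_zero 1
  rw [tr_EE] at he
  by_cases h : x 1 * x 4 + x 2 * x 5 + x 3 * x 6 = 0
  swap
  · exact rel_ne x he h
  by_cases ha : (![x 1, x 2, x 3] : Fin 3 → F) = 0
  · have a1 : x 1 = 0 := congrFun ha 0
    have a2 : x 2 = 0 := congrFun ha 1
    have a3 : x 3 = 0 := congrFun ha 2
    by_cases hb : (![x 4, x 5, x 6] : Fin 3 → F) = 0
    · have b1 : x 4 = 0 := congrFun hb 0
      have b2 : x 5 = 0 := congrFun hb 1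
      have b3 : x 6 = 0 := congrFun hb 2
      have h3 := rel_M2' (α := x 0) (a := 0) (b := 0) (β := x 7) he
      have h4 : (EE F).symm x = (!![x 0, 0; 0, x 7], (0 : Matrix (Fin 2) (Fin 2) F)) := by
        rw [EE_symm]
        apply Prod.ext
        · simp [a1, b1]
        · ext i j
          fin_cases i <;> fin_cases j <;> simp [a2, a3, b2, b3]
      have h5 : nm ((EE F).symm x) = x 0 * x 7 - 0 * 0 := by rw [nm_EE, h]; ring
      rw [h5, h4]
      exact h3
    · obtain ⟨q, r, e0, e1, e2⟩ := exists_cross hb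
      obtain ⟨p, hp⟩ := exists_dual hb 1
      simp only [Matrix.cons_val_zero, Matrix.cons_val_one, Matrix.cons_val] at e0 e1 e2 hp
      have hdt : dt p q r = 1 := by rw [dt, e0, e1, e2, hp]
      have hx : x = Lf p q r ![x 0, 0, 0, 0, 1, 0, 0, x 7] := by
        funext i
        fin_cases i
        · simp [Lf]
        · simp [Lf, a1]
        · simp [Lf, a2]
        · simp [Lf, a3]
        · simp [Lf, e0]
        · simp [Lf, e1]
        · simp [Lf, e2]
        · simp [Lf]
      have h1 := rel_Lf hdt (![x 0, 0, 0, 0, 1, 0, 0, x 7] : Fin 8 → F)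
      rw [← hx] at h1
      refine h1.trans ?_
      have h2 := rel_M2' (α := x 0) (a := 0) (b := 1) (β := x 7) he
      have h3 : nm ((EE F).symm x) = x 0 * x 7 - 0 * 1 := by rw [nm_EE, h]; ring
      rw [h3]
      have h4 : (EE F).symm (![x 0, 0, 0, 0, 1, 0, 0, x 7] : Fin 8 → F) = (!![x 0, 0; 1, x 7], (0 : Matrix (Fin 2) (Fin 2) F)) := by
        rw [EE_symm]
        apply Prod.ext
        · simp
        · ext i j
          fin_cases i <;> fin_cases j <;> simp
      rw [h4]
      exact h2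
  · by_cases hb : (![x 4, x 5, x 6] : Fin 3 → F) = 0
    · have b1 : x 4 = 0 := congrFun hb 0
      have b2 : x 5 = 0 := congrFun hb 1
      have b3 : x 6 = 0 := congrFun hb 2
      obtain ⟨d, hd⟩ := exists_dual ha 1
      have hd0 : d ≠ 0 := by rintro rfl; simp at hd
      obtain ⟨q, r, e0, e1, e2⟩ := exists_cross hd0
      simp only [Matrix.cons_val_zero, Matrix.cons_val_one, Matrix.cons_val] at hd
      let p : Fin 3 → F := ![x 1, x 2, x 3]
      have hdt : dt p q r = 1 := by
        rw [dt, e0, e1, e2]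
        change x 1 * d 0 + x 2 * d 1 + x 3 * d 2 = 1
        linear_combination hd
      have hx : x = Lf p q r ![x 0, 1, 0, 0, 0, 0, 0, x 7] := by
        funext i
        fin_cases i
        · simp [Lf]
        · simp [Lf, p]
        · simp [Lf, p]
        · simp [Lf, p]
        · simp [Lf, b1]
        · simp [Lf, b2]
        · simp [Lf, b3]
        · simp [Lf]
      have h1 := rel_Lf hdt (![x 0, 1, 0, 0, 0, 0, 0, x 7] : Fin 8 → F)
      rw [← hx] at h1
      refine h1.trans ?_
      have h2 := rel_M2' (α := x 0) (a := 1) (b := 0) (β := x 7) he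
      have h3 : nm ((EE F).symm x) = x 0 * x 7 - 1 * 0 := by rw [nm_EE, h]; ring
      rw [h3]
      have h4 : (EE F).symm (![x 0, 1, 0, 0, 0, 0, 0, x 7] : Fin 8 → F) = (!![x 0, 1; 0, x 7], (0 : Matrix (Fin 2) (Fin 2) F)) := by
        rw [EE_symm]
        apply Prod.ext
        · simp
        · ext i j
          fin_cases i <;> fin_cases j <;> simp
      rw [h4]
      exact h2
    · -- both nonzero, orthogonal
      obtain ⟨r, e0, e1, e2⟩ := exists_perp (a := ![x 1, x 2, x 3]) (b := ![x 4, x 5, x 6]) ha (by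
        simpa using h)
      obtain ⟨q, hq⟩ := exists_dual hb 1
      simp only [Matrix.cons_val_zero, Matrix.cons_val_one, Matrix.cons_val] at e0 e1 e2 hq
      let p : Fin 3 → F := ![x 1, x 2, x 3]
      have hp0 : p 0 = x 1 := rfl
      have hp1 : p 1 = x 2 := rfl
      have hp2 : p 2 = x 3 := rfl
      have hdt : dt p q r = 1 := by
        rw [dt, hp0, hp1, hp2]
        linear_combination q 0 * e0 + q 1 * e1 + q 2 * e2 + hq
      have hx : x = Lf p q r ![x 0, 1, 0, 0, 0, 1, 0, x 7] := by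
        funext i
        fin_cases i
        · simp [Lf]
        · simp [Lf, p]
        · simp [Lf, p]
        · simp [Lf, p]
        · simp [Lf, hp0, hp1, hp2, e0]
        · simp [Lf, hp0, hp1, hp2, e1]
        · simp [Lf, hp0, hp1, hp2, e2]
        · simp [Lf]
      have h1 := rel_Lf hdt (![x 0, 1, 0, 0, 0, 1, 0, x 7] : Fin 8 → F)
      rw [← hx] at h1
      refine h1.trans ?_
      -- conjugation in the quaternion subalgebra
      let P : GL (Fin 2) F := ⟨!![1, 0; t, 1], !![1, 0; -t, 1], by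
        rw [Matrix.mul_fin_two, Matrix.one_fin_two]; simp, by
        rw [Matrix.mul_fin_two, Matrix.one_fin_two]; simp⟩
      have hP : (P : Matrix (Fin 2) (Fin 2) F) = !![1, 0; t, 1] := rfl
      have hPi : ((P⁻¹ : GL (Fin 2) F) : Matrix (Fin 2) (Fin 2) F) = !![1, 0; -t, 1] := rfl
      set y : Fin 8 → F := ![x 0 - t, 1, 0, t, t * (x 0 - x 7 - t), 1, 0, x 7 + t] with hy
      have h3 : Rel ((EE F).symm (![x 0, 1, 0, 0, 0, 1, 0, x 7] : Fin 8 → F)) ((EE F).symm y) := by
        refine ⟨phiL P P, phiL_mem P P rfl, ?_⟩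
        rw [phiL_apply, EE_symm, EE_symm, hP, hPi]
        apply Prod.ext
        · simp only [Matrix.mul_fin_two]
          ext i j
          fin_cases i <;> fin_cases j <;> simp [hy] <;> ring
        · simp only [Matrix.mul_fin_two]
          ext i j
          fin_cases i <;> fin_cases j <;> simp [hy]
      refine h3.trans ?_
      have h4 : nm ((EE F).symm x) = nm ((EE F).symm y) := by
        rw [nm_EE, nm_EE, h]
        simp [hy]
        ring
      rw [h4]
      apply rel_ne y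
      · change x 0 - t + (x 7 + t) = 1
        linear_combination he
      · have : y 1 * y 4 + y 2 * y 5 + y 3 * y 6 = t * (x 0 - x 7 - t) := by
          simp [hy]
        rw [this]
        apply mul_ne_zero ht0
        intro h5
        apply ht1
        linear_combination -h5 + he - x 7 * h2

end

end Oct

end Cfsg.Agent.Cov44
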