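import Cfsg.Agent.Cov44.Basic
import Cfsg.Agent.ClassSp.Simple
import Cfsg.Prelude.Def_Classical

/-!
Dye: in characteristic two every element of the symplectic group preserves a quadratic form polarising to the
symplectic form.
-/

set_option autoImplicit false

namespace Cfsg.Agent.Cov44

open Cfsg.Agent.ClassSp

namespace SpE

variable {F : Type*} [Field F] {m : ℕ}

/-- the standard quadratic form -/
def Q0 (v : Fin m ⊕ Fin m → F) : F := ∑ i, v (Sum.inl i) * v (Sum.inr i)

theorem Q0_add [CharP F 2] (u v : Fin m ⊕ Fin m → F) : Q0 (u + v) = Q0 u + Q0 v + sf u v := by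
  simp only [Q0, sf, Pi.add_apply, ← Finset.sum_add_distrib]
  refine Finset.sum_congr rfl fun i _ => ?_
  rw [CharTwo.sub_eq_add]
  ring

theorem Q0_smul (a : F) (v : Fin m ⊕ Fin m → F) : Q0 (a • v) = a ^ 2 * Q0 v := by
  simp only [Q0, Pi.smul_apply, smul_eq_mul, Finset.mul_sum]
  exact Finset.sum_congr rfl fun i _ => by ring

/-- the forms polarising to the symplectic form -/
def Qa (a v : Fin m ⊕ Fin m → F) : F := Q0 v + (sf a v) ^ 2

theorem Qa_add [CharP F 2] (a u v : Fin m ⊕ Fin m → F) : Qa a (u + v) = Qa a u + Qa a v + sf u v := by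
  unfold Qa
  rw [Q0_add, sf_add_right, CharTwo.add_sq]
  ring

theorem Qa_smul (a : Fin m ⊕ Fin m → F) (c : F) (v : Fin m ⊕ Fin m → F) : Qa a (c • v) = c ^ 2 * Qa a v := by
  unfold Qa
  rw [Q0_smul, sf_smul_right]
  ring

theorem Qa_tv [CharP F 2] (a w : Fin m ⊕ Fin m → F) (k : F) (v : Fin m ⊕ Fin m → F) :
    Qa a ((tv w k : Matrix _ _ F).mulVec v) = Qa a v + (sf v w) ^ 2 * (k ^ 2 * Qa a w + k) := by
  rw [tv_mulVec, Qa_add, Qa_smul, sf_smul_right]
  ring

/-- the stabiliser -/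
def St (a : Fin m ⊕ Fin m → F) : Subgroup (Matrix.symplecticGroup (Fin m) F) where
  carrier := {g | ∀ v, Qa a ((g : Matrix _ _ F).mulVec v) = Qa a v}
  mul_mem' := by
    intro g h hg hh v
    rw [mul_mulVec, hg, hh]
  one_mem' := by
    intro v
    rw [one_mulVec']
  inv_mem' := by
    intro g hg v
    have := hg (((g⁻¹ : Matrix.symplecticGroup (Fin m) F) : Matrix _ _ F).mulVec v)
    rw [mulVec_inv_mulVec] at this
    exact this.symm

theorem mem_St {a : Fin m ⊕ Fin m → F} {g : Matrix.symplecticGroup (Fin m) F} :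
    g ∈ St a ↔ ∀ v, Qa a ((g : Matrix _ _ F).mulVec v) = Qa a v := Iff.rfl

theorem conj_St {a b : Fin m ⊕ Fin m → F} {h g : Matrix.symplecticGroup (Fin m) F}
    (hh : ∀ v, Qa b v = Qa a ((h : Matrix _ _ F).mulVec v)) (hg : g ∈ St b) : h * g * h⁻¹ ∈ St a := by
  intro v
  rw [mul_mulVec, mul_mulVec, ← hh, hg, hh, mulVec_inv_mulVec]

theorem exists_tv [CharP F 2] {a b : Fin m ⊕ Fin m → F} {s : F} (hs : s ^ 2 + s = Qa a (a + b)) :
    ∃ h : Matrix.symplecticGroup (Fin m) F, ∀ v, Qa b v = Qa a ((h : Matrix _ _ F).mulVec v) := by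
  obtain ⟨k, hk⟩ : ∃ k : F, k ^ 2 * Qa a (a + b) + k = 1 := by
    by_cases h0 : Qa a (a + b) = 0
    · exact ⟨1, by rw [h0]; ring⟩
    · refine ⟨s / Qa a (a + b), ?_⟩
      field_simp
      rw [← hs]
      ring
  refine ⟨tv (a + b) k, fun v => ?_⟩
  rw [Qa_tv, hk, mul_one, sf_swap v (a + b), neg_sq, sf_add_left, CharTwo.add_sq]
  unfold Qa
  have h2 : (sf a v) ^ 2 + (sf a v) ^ 2 = 0 := CharTwo.add_self_eq_zero _
  linear_combination -h2

/-- `t ↦ t ^ 2 + t` -/
def wp (F : Type*) [Field F] [CharP F 2] : F →+ F where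
  toFun t := t ^ 2 + t
  map_zero' := by ring
  map_add' x y := by rw [CharTwo.add_sq]; ring

theorem wp_apply [CharP F 2] (t : F) : wp F t = t ^ 2 + t := rfl

theorem index_wp [Fintype F] [CharP F 2] : (wp F).range.index = 2 := by
  have hker : Nat.card (wp F).ker = 2 := by
    have : ((wp F).ker : Set F) = {0, 1} := by
      ext x
      simp only [SetLike.mem_coe, AddMonoidHom.mem_ker, wp_apply, Set.mem_insert_iff, Set.mem_singleton_iff]
      constructor
      · intro h
        have h1 : x * (x + 1) = 0 := by rw [← h]; ring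
        rcases mul_eq_zero.1 h1 with h2 | h2
        · exact Or.inl h2
        · right
          rw [← CharTwo.sub_eq_add] at h2
          exact sub_eq_zero.1 h2
      · rintro (rfl | rfl)
        · ring
        · have : (1 : F) + 1 = 0 := CharTwo.add_self_eq_zero _
          rw [one_pow, this]
    have h2 : Nat.card (wp F).ker = Nat.card ((wp F).ker : Set F) := rfl
    rw [h2, this, Nat.card_coe_set_eq, Set.ncard_pair zero_ne_one]
  have h1 := AddSubgroup.card_mul_index (wp F).ker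
  have h3 := AddSubgroup.card_mul_index (wp F).range
  have h4 : Nat.card (wp F).range = (wp F).ker.index := by
    rw [AddSubgroup.index_ker]
  have h5 : 0 < Nat.card (wp F).range := Nat.card_pos
  rw [← h4, hker] at h1
  have h6 : Nat.card (wp F).range * (wp F).range.index = Nat.card (wp F).range * 2 := by
    rw [h3, ← h1, mul_comm]
  exact Nat.eq_of_mul_eq_mul_left h5 h6

/-- functionals -/
theorem exists_sf (φ : (Fin m ⊕ Fin m → F) →ₗ[F] F) : ∃ c, ∀ v, φ v = sf c v := by
  refine ⟨Sum.elim (fun i => φ (Pi.single (Sum.inr i) 1)) (fun i => - φ (Pi.single (Sum.inl i) 1)), fun v => ?_⟩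
  have hv : v = ∑ j, v j • (Pi.single j 1 : Fin m ⊕ Fin m → F) := by
    ext j
    simp [Finset.sum_apply, Pi.single_apply]
  conv_lhs => rw [hv]
  rw [map_sum, Fintype.sum_sum_type]
  simp only [sf, Sum.elim_inl, Sum.elim_inr, map_smul, smul_eq_mul, Finset.sum_sub_distrib]
  rw [add_comm, sub_eq_add_neg, ← Finset.sum_neg_distrib]
  congr 1
  · exact Finset.sum_congr rfl fun i _ => mul_comm _ _
  · exact Finset.sum_congr rfl fun i _ => by ring

/-- Dye's lemma -/
theorem exists_mem_St [Fintype F] [CharP F 2] (g : Matrix.symplecticGroup (Fin m) F) : ∃ a, g ∈ St a := by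
  -- the difference is the square of a functional
  have hsq : ∀ x : F, ((frobeniusEquiv F 2).symm x) ^ 2 = x := fun x => frobeniusEquiv_symm_pow_p F 2 x
  have hinj : ∀ x y : F, x ^ 2 = y ^ 2 → x = y := fun x y h => by
    have := frobenius_inj F 2
    exact this (by rw [frobenius_def, frobenius_def]; exact h)
  set f : (Fin m ⊕ Fin m → F) → F := fun v =>
    Q0 ((g : Matrix (Fin m ⊕ Fin m) (Fin m ⊕ Fin m) F).mulVec v) + Q0 v with hf
  have hadd : ∀ u v, f (u + v) = f u + f v := by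
    intro u v
    rw [hf]
    simp only
    rw [Matrix.mulVec_add, Q0_add, Q0_add, sf_mulVec]
    have h2 : sf u v + sf u v = 0 := CharTwo.add_self_eq_zero _
    linear_combination h2
  have hsmul : ∀ (a : F) v, f (a • v) = a ^ 2 * f v := by
    intro a v
    rw [hf]
    simp only
    rw [Matrix.mulVec_smul, Q0_smul, Q0_smul]
    ring
  let φ : (Fin m ⊕ Fin m → F) →ₗ[F] F :=
    { toFun := fun v => (frobeniusEquiv F 2).symm (f v)
      map_add' := fun u v => by rw [hadd, map_add]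
      map_smul' := fun a v => by
        apply hinj
        rw [hsq, hsmul, RingHom.id_apply, smul_eq_mul, mul_pow, hsq] }
  obtain ⟨c, hc⟩ := exists_sf φ
  have hfc : ∀ v, f v = (sf c v) ^ 2 := fun v => by rw [← hc]; exact (hsq _).symm
  -- the equation
  let T : (Fin m ⊕ Fin m → F) →ₗ[F] (Fin m ⊕ Fin m → F) :=
    LinearMap.id + Matrix.toLin' ((g⁻¹ : Matrix.symplecticGroup (Fin m) F) : Matrix _ _ F)
  have hT : ∀ v, T v = v + ((g⁻¹ : Matrix.symplecticGroup (Fin m) F) : Matrix _ _ F).mulVec v := fun v => by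
    simp [T, Matrix.toLin'_apply]
  have hadj : ∀ x y : Fin m ⊕ Fin m → F, sf x (((g⁻¹ : Matrix.symplecticGroup (Fin m) F) :
      Matrix (Fin m ⊕ Fin m) (Fin m ⊕ Fin m) F).mulVec y) =
      sf ((g : Matrix (Fin m ⊕ Fin m) (Fin m ⊕ Fin m) F).mulVec x) y := by
    intro x y
    rw [← sf_mulVec g, mulVec_inv_mulVec]
  have hmem : c ∈ LinearMap.range T := by
    by_contra hcon
    obtain ⟨ψ, hψ1, hψ2⟩ := Submodule.exists_dual_map_eq_bot_of_notMem hcon inferInstance
    obtain ⟨x, hx⟩ := exists_sf ψ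
    have h1 : ∀ y, sf (x + (g : Matrix (Fin m ⊕ Fin m) (Fin m ⊕ Fin m) F).mulVec x) y = 0 := by
      intro y
      rw [sf_add_left, ← hadj, ← sf_add_right, ← hT, ← hx]
      have : ψ (T y) ∈ (LinearMap.range T).map ψ := ⟨T y, ⟨y, rfl⟩, rfl⟩
      rw [hψ2] at this
      exact (Submodule.mem_bot F).1 this
    have h2 : x + (g : Matrix (Fin m ⊕ Fin m) (Fin m ⊕ Fin m) F).mulVec x = 0 := by
      apply eq_zero_of_sf
      intro u
      rw [sf_swap, h1, neg_zero]
    have h3 : (g : Matrix (Fin m ⊕ Fin m) (Fin m ⊕ Fin m) F).mulVec x = x := by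
      have h4 : x + x = 0 := by funext j; exact CharTwo.add_self_eq_zero (x j)
      have h5 : x + (g : Matrix (Fin m ⊕ Fin m) (Fin m ⊕ Fin m) F).mulVec x = x + x := by rw [h2, h4]
      exact add_left_cancel h5
    apply hψ1
    rw [hx, sf_swap, neg_eq_zero]
    have h6 := hfc x
    rw [hf] at h6
    simp only at h6
    rw [h3, CharTwo.add_self_eq_zero] at h6
    exact pow_eq_zero_iff (two_ne_zero) |>.1 h6.symm
  obtain ⟨a, ha⟩ := hmem
  refine ⟨a, fun v => ?_⟩
  unfold Qa
  have h1 := hfc v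
  rw [← ha, hT, sf_add_left] at h1
  have h2 : sf (((g⁻¹ : Matrix.symplecticGroup (Fin m) F) : Matrix _ _ F).mulVec a) v =
      sf a ((g : Matrix _ _ F).mulVec v) := by
    rw [← sf_mulVec g, mulVec_inv_mulVec]
  rw [h2, CharTwo.add_sq] at h1
  rw [hf] at h1
  simp only at h1
  have h3 : Q0 v + Q0 v = 0 := CharTwo.add_self_eq_zero _
  have h4 : (sf a ((g : Matrix _ _ F).mulVec v)) ^ 2 + (sf a ((g : Matrix _ _ F).mulVec v)) ^ 2 = 0 := CharTwo.add_self_eq_zero _
  linear_combination h1 - h3 + h4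

theorem St_ne_top [CharP F 2] (hm : 2 ≤ m) (a : Fin m ⊕ Fin m → F) : St a ≠ ⊤ := by
  intro htop
  have key : ∀ w : Fin m ⊕ Fin m → F, w ≠ 0 → Qa a w = 1 := by
    intro w hw
    obtain ⟨u, hu⟩ := exists_sf_ne_zero hw
    have h1 : tv w (1 : F) ∈ St a := by rw [htop]; trivial
    have h2 := h1 u
    rw [Qa_tv] at h2
    have h3 : (sf u w) ^ 2 * (1 ^ 2 * Qa a w + 1) = 0 := by
      linear_combination h2
    rcases mul_eq_zero.1 h3 with h4 | h4
    · exact absurd (pow_eq_zero_iff two_ne_zero |>.1 h4) hu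
    · rw [one_pow, one_mul, ← CharTwo.sub_eq_add] at h4
      exact sub_eq_zero.1 h4
  set w1 : Fin m ⊕ Fin m → F := Pi.single (Sum.inl ⟨0, by omega⟩) 1 with hw1
  set w2 : Fin m ⊕ Fin m → F := Pi.single (Sum.inl ⟨1, by omega⟩) 1 with hw2
  have n1 : w1 ≠ 0 := by
    intro h
    have := congrFun h (Sum.inl ⟨0, by omega⟩)
    rw [hw1] at this
    simp at this
  have n2 : w2 ≠ 0 := by
    intro h
    have := congrFun h (Sum.inl ⟨1, by omega⟩)
    rw [hw2] at this
    simp at this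
  have n3 : w1 + w2 ≠ 0 := by
    intro h
    have := congrFun h (Sum.inl ⟨1, by omega⟩)
    rw [hw1, hw2] at this
    simp [Pi.single_apply, Fin.ext_iff] at this
  have h := Qa_add a w1 w2
  rw [key _ n1, key _ n2, key _ n3, hw1, sf_single_inl_left, hw2] at h
  have h5 : (Pi.single (Sum.inl (⟨1, by omega⟩ : Fin m)) (1 : F) : Fin m ⊕ Fin m → F) (Sum.inr ⟨0, by omega⟩) = 0 := by
    simp [Pi.single_apply]
  rw [h5, add_zero, CharTwo.add_self_eq_zero] at h
  exact one_ne_zero h

theorem center_le_St [CharP F 2] (a : Fin m ⊕ Fin m → F) :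
    Subgroup.center (Matrix.symplecticGroup (Fin m) F) ≤ St a := by
  intro z hz v
  obtain ⟨c, hc, hv⟩ := mem_center_iff.1 hz
  rw [hv, Qa_smul, hc, one_mul]

end SpE

open SpE in
theorem cov_PSp_even {F : Type*} [Field F] [Fintype F] (m : ℕ) (hm : 2 ≤ m) (h2 : ¬ Odd (Fintype.card F)) :
    Cov (Cfsg.PSp m F) := by
  haveI : CharP F 2 := by
    obtain ⟨p, hp⟩ := CharP.exists F
    haveI := hp
    obtain ⟨n, hpp, hn⟩ := FiniteField.card F p
    have : p = 2 := by
      by_contra hne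
      exact h2 (by rw [hn]; exact (hpp.odd_of_ne_two hne).pow)
    rw [← this]; exact hp
  -- a value outside the image of `wp`
  obtain ⟨n0, hn0⟩ : ∃ n0 : F, n0 ∉ (wp F).range := by
    by_contra hcon
    push Not at hcon
    have : (wp F).range = ⊤ := by
      rw [eq_top_iff]; intro x _; exact hcon x
    have h1 := index_wp (F := F)
    rw [this, AddSubgroup.index_top] at h1
    omega
  let a0 : Fin m ⊕ Fin m → F := Pi.single (Sum.inl ⟨0, by omega⟩) 1 + n0 • Pi.single (Sum.inr ⟨0, by omega⟩) 1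
  have ha0 : Q0 a0 = n0 := by
    have e1 : Q0 (Pi.single (Sum.inl (⟨0, by omega⟩ : Fin m)) (1 : F) : Fin m ⊕ Fin m → F) = 0 := by
      simp [Q0, Pi.single_apply]
    have e2 : Q0 (Pi.single (Sum.inr (⟨0, by omega⟩ : Fin m)) (1 : F) : Fin m ⊕ Fin m → F) = 0 := by
      simp [Q0, Pi.single_apply]
    change Q0 (_ + _) = _
    rw [Q0_add, Q0_smul, e1, e2, sf_smul_right, sf_single_inl_left]
    simp
  refine cov_quot _ (St 0) (St a0) (St_ne_top hm 0) (St_ne_top hm a0) (center_le_St _) (center_le_St _) ?_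
  intro g
  obtain ⟨b, hb⟩ := exists_mem_St g
  by_cases hcase : Q0 b ∈ (wp F).range
  · obtain ⟨s, hs⟩ := hcase
    rw [wp_apply] at hs
    obtain ⟨h, hh⟩ := exists_tv (a := 0) (b := b) (s := s) (by
      rw [hs, zero_add]; unfold Qa; rw [sf_zero_left]; ring)
    exact ⟨h, Or.inl (conj_St hh hb)⟩
  · have h1 : Q0 a0 + Q0 b ∈ (wp F).range := by
      rw [AddSubgroup.add_mem_iff_of_index_two index_wp, ha0]
      exact ⟨fun h => absurd h hn0, fun h => absurd h hcase⟩
    obtain ⟨s, hs⟩ := h1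
    rw [wp_apply] at hs
    obtain ⟨h, hh⟩ := exists_tv (a := a0) (b := b) (s := s + sf a0 b) (by
      unfold Qa
      rw [Q0_add, sf_add_right, sf_self, zero_add, ← hs, CharTwo.add_sq]
      ring)
    exact ⟨h, Or.inr (conj_St hh hb)⟩

end Cfsg.Agent.Cov44
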