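import Cfsg.Agent.Cov44.G2A
import Cfsg.Agent.Cov44.Basic
import Cfsg.Agent.Cov44.SpEven

/-!
`G_2(2 ^ a)` is covered by the conjugates of two proper subgroups.
-/

set_option autoImplicit false

namespace Cfsg.Agent.Cov44

open Matrix Cfsg.Agent.H53.SEA Cfsg.Lie Module

namespace Oct

section

variable {F : Type*} [Field F]

theorem tr_add (u v : OO F) : tr (u + v) = tr u + tr v := by
  simp only [tr, Prod.fst_add, Matrix.add_apply]; ring

theorem tr_smul (c : F) (u : OO F) : tr (c • u) = c * tr u := by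
  simp only [tr, Prod.smul_fst, Matrix.smul_apply, smul_eq_mul]; ring

/-- the identity -/
def on : OO F := (1, 0)

theorem tr_on [CharP F 2] : tr (on : OO F) = 0 := by
  change (1 : Matrix (Fin 2) (Fin 2) F) 0 0 + (1 : Matrix (Fin 2) (Fin 2) F) 1 1 = 0
  rw [Matrix.one_apply_eq, Matrix.one_apply_eq]
  exact CharTwo.add_self_eq_zero 1

theorem om_on (u : OO F) : om u on = u := by
  rw [om, on]
  apply Prod.ext
  · simp
  · simp [adjugate_one]

theorem on_om (u : OO F) : om on u = u := by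
  rw [om, on]
  apply Prod.ext
  · simp
  · simp

theorem om_self (u : OO F) : om u u = tr u • u - nm u • on := by
  obtain ⟨X, W⟩ := u
  rw [Matrix.eta_fin_two X, Matrix.eta_fin_two W]
  rw [om, tr, nm, on]
  apply Prod.ext
  · simp only [adjugate_fin_two_of, Matrix.mul_fin_two, Matrix.of_add_of, det_fin_two_of]
    ext i j
    fin_cases i <;> fin_cases j <;> simp <;> ring
  · simp only [adjugate_fin_two_of, Matrix.mul_fin_two, Matrix.of_add_of, det_fin_two_of]
    ext i j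
    fin_cases i <;> fin_cases j <;> simp <;> ring

theorem map_on {g : OO F ≃ₗ[F] OO F} (hg : g ∈ AutO F) : g on = on := by
  have h1 : ∀ v, om (g on) v = v := by
    intro v
    obtain ⟨u, rfl⟩ := g.surjective v
    rw [← hg, on_om]
  have := h1 on
  rwa [om_on] at this

theorem on_ne : (on : OO F) ≠ 0 := by
  intro h
  have h1 := congrArg (fun u : OO F => u.1 0 0) h
  simp [on] at h1

theorem tr_nm_map {g : OO F ≃ₗ[F] OO F} (hg : g ∈ AutO F) (u : OO F) : tr (g u) = tr u ∧ nm (g u) = nm u := by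
  have h1 : g (om u u) = om (g u) (g u) := hg u u
  rw [om_self, om_self, map_sub, map_smul, map_smul, map_on hg] at h1
  have h2 : (tr u - tr (g u)) • g u = (nm u - nm (g u)) • (on : OO F) := by
    have e1 : (tr u - tr (g u)) • g u - (nm u - nm (g u)) • (on : OO F) =
      (tr u • g u - nm u • on) - (tr (g u) • g u - nm (g u) • on) := by module
    rw [← sub_eq_zero, e1, h1, sub_self]
  have h3 : tr (g u) = tr u := by
    by_contra hne
    have hne' : tr u - tr (g u) ≠ 0 := fun h => hne (sub_eq_zero.1 h).symm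
    have h4 : g u = ((tr u - tr (g u))⁻¹ * (nm u - nm (g u))) • on := by
      rw [mul_smul, ← h2, smul_smul, inv_mul_cancel₀ hne', one_smul]
    have h5 : u = ((tr u - tr (g u))⁻¹ * (nm u - nm (g u))) • on := by
      apply g.injective
      conv_lhs => rw [h4]
      rw [map_smul, map_on hg]
    exact hne (congrArg tr (h4.trans h5.symm))
  refine ⟨h3, ?_⟩
  rw [h3, sub_self, zero_smul] at h2
  exact (sub_eq_zero.1 ((smul_eq_zero.1 h2.symm).resolve_right on_ne)).symm

/-- the polar form -/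
def Bo (u v : OO F) : F := u.1 0 0 * v.1 1 1 + u.1 1 1 * v.1 0 0 - u.1 0 1 * v.1 1 0 - u.1 1 0 * v.1 0 1
  - (u.2 0 0 * v.2 1 1 + u.2 1 1 * v.2 0 0 - u.2 0 1 * v.2 1 0 - u.2 1 0 * v.2 0 1)

theorem nm_add (u v : OO F) : nm (u + v) = nm u + nm v + Bo u v := by
  simp only [nm, Bo, det_fin_two, Prod.fst_add, Prod.snd_add, Matrix.add_apply]
  ring

theorem Bo_map {g : OO F ≃ₗ[F] OO F} (hg : g ∈ AutO F) (u v : OO F) : Bo (g u) (g v) = Bo u v := by
  have h1 := nm_add u v
  have h2 := nm_add (g u) (g v)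
  rw [← map_add, (tr_nm_map hg _).2, (tr_nm_map hg _).2, (tr_nm_map hg _).2] at h2
  linear_combination h1 - h2

theorem Bo_on (u : OO F) : Bo on u = tr u := by
  simp [Bo, on, tr]
  ring

theorem Bo_comm (u v : OO F) : Bo u v = Bo v u := by
  simp only [Bo]; ring

/-- linear functionals -/
theorem exists_Bo (χ : OO F →ₗ[F] F) : ∃ w : OO F, ∀ u, χ u = Bo w u := by
  refine ⟨(!![χ (!![0, 0; 0, 1], 0), - χ (!![0, 0; 1, 0], 0); - χ (!![0, 1; 0, 0], 0), χ (!![1, 0; 0, 0], 0)],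
    !![- χ (0, !![0, 0; 0, 1]), χ (0, !![0, 0; 1, 0]); χ (0, !![0, 1; 0, 0]), - χ (0, !![1, 0; 0, 0])]), fun u => ?_⟩
  have hu : u = u.1 0 0 • ((!![1, 0; 0, 0], 0) : OO F) + u.1 0 1 • (!![0, 1; 0, 0], 0) + u.1 1 0 • (!![0, 0; 1, 0], 0)
      + u.1 1 1 • (!![0, 0; 0, 1], 0) + u.2 0 0 • (0, !![1, 0; 0, 0]) + u.2 0 1 • (0, !![0, 1; 0, 0])
      + u.2 1 0 • (0, !![0, 0; 1, 0]) + u.2 1 1 • (0, !![0, 0; 0, 1]) := by
    apply Prod.ext
    · ext i j
      fin_cases i <;> fin_cases j <;> simp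
    · ext i j
      fin_cases i <;> fin_cases j <;> simp
  conv_lhs => rw [hu]
  simp only [map_add, map_smul, smul_eq_mul]
  simp [Bo]
  ring

theorem exists_factor {V W : Type*} [AddCommGroup V] [Module F V] [AddCommGroup W] [Module F W] (f : V →ₗ[F] W) (φ : V →ₗ[F] F)
    (h : LinearMap.ker f ≤ LinearMap.ker φ) : ∃ ψ : W →ₗ[F] F, ∀ x, φ x = ψ (f x) := by
  have h1 : φ ∈ (LinearMap.ker f).dualAnnihilator := by
    rw [Submodule.mem_dualAnnihilator]
    intro w hw
    exact h hw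
  rw [← LinearMap.range_dualMap_eq_dualAnnihilator_ker] at h1
  obtain ⟨ψ, hψ⟩ := h1
  exact ⟨ψ, fun x => (LinearMap.congr_fun hψ x).symm⟩

/-- Dye's argument -/
theorem exists_fixed [CharP F 2] {g : OO F ≃ₗ[F] OO F} (hg : g ∈ AutO F) : ∃ e : OO F, tr e = 1 ∧ ∃ c : F, g e - e = c • on := by
  suffices h : ∃ e : OO F, tr e ≠ 0 ∧ ∃ c : F, g e - e = c • on by
    obtain ⟨e, he, c, hc⟩ := h
    refine ⟨(tr e)⁻¹ • e, by rw [tr_smul, inv_mul_cancel₀ he], (tr e)⁻¹ * c, ?_⟩
    rw [map_smul, ← smul_sub, hc, smul_smul]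
  by_contra hcon
  push Not at hcon
  let trL : OO F →ₗ[F] F := { toFun := tr, map_add' := tr_add, map_smul' := tr_smul }
  let f : OO F →ₗ[F] (OO F ⧸ Submodule.span F {(on : OO F)}) :=
    (Submodule.mkQ _) ∘ₗ ((g : OO F →ₗ[F] OO F) - LinearMap.id)
  obtain ⟨ψ, hψ⟩ := exists_factor f trL (by
    intro x hx
    rw [LinearMap.mem_ker] at hx ⊢
    have h1 : g x - x ∈ Submodule.span F {(on : OO F)} := (Submodule.Quotient.mk_eq_zero _).1 hx
    obtain ⟨c, hc⟩ := Submodule.mem_span_singleton.1 h1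
    by_contra hne
    exact hcon x hne c hc.symm)
  obtain ⟨w, hw⟩ := exists_Bo (ψ ∘ₗ (Submodule.mkQ (Submodule.span F {(on : OO F)})))
  have h1 : ∀ x, tr x = Bo w (g x - x) := fun x => by
    rw [← hw]
    exact hψ x
  have h2 : tr w = 0 := by
    rw [← Bo_on, Bo_comm, ← hw]
    change ψ (Submodule.Quotient.mk on) = 0
    rw [(Submodule.Quotient.mk_eq_zero _).2 (Submodule.mem_span_singleton_self _), map_zero]
  obtain ⟨v, hv⟩ := g.surjective w
  -- `g v = w`, `v = w + 1`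
  have hBsub : ∀ a b c : OO F, Bo a (b - c) = Bo a b - Bo a c := by
    intro a b c
    simp only [Bo, Prod.fst_sub, Prod.snd_sub, Matrix.sub_apply]; ring
  have hBsub' : ∀ a b c : OO F, Bo (a - b) c = Bo a c - Bo b c := by
    intro a b c
    rw [Bo_comm, hBsub, Bo_comm c a, Bo_comm c b]
  have h3 : ∀ x, Bo (v - w - on) x = 0 := by
    intro x
    have h4 := h1 x
    rw [hBsub, ← hv, Bo_map hg, hv] at h4
    rw [hBsub', hBsub', Bo_on, h4]
    ring
  have h4 : v - w - on = 0 := by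
    set z := v - w - on with hz
    have e1 := h3 (!![1, 0; 0, 0], 0)
    have e2 := h3 (!![0, 1; 0, 0], 0)
    have e3 := h3 (!![0, 0; 1, 0], 0)
    have e4 := h3 (!![0, 0; 0, 1], 0)
    have e5 := h3 (0, !![1, 0; 0, 0])
    have e6 := h3 (0, !![0, 1; 0, 0])
    have e7 := h3 (0, !![0, 0; 1, 0])
    have e8 := h3 (0, !![0, 0; 0, 1])
    simp [Bo] at e1 e2 e3 e4 e5 e6 e7 e8
    apply Prod.ext
    · ext i j
      fin_cases i <;> fin_cases j <;> simp [e1, e2, e3, e4]
    · ext i j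
      fin_cases i <;> fin_cases j <;> simp [e5, e6, e7, e8]
  have h5 : v = w + on := by
    have : v = (v - w - on) + (w + on) := by abel
    rw [this, h4, zero_add]
  have h6 : nm v = nm w := by rw [← hv, (tr_nm_map hg v).2]
  rw [h5, nm_add, Bo_comm, Bo_on, h2, add_zero] at h6
  have h7 : nm (on : OO F) = 1 := by
    rw [nm, on]
    simp
  rw [h7] at h6
  have : (1 : F) = 0 := by linear_combination h6
  exact one_ne_zero this

/-- the stabilisers -/
def St (ν : F) : Subgroup (AutO F) where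
  carrier := {g | ∃ c : F, (g : OO F ≃ₗ[F] OO F) (Cn ν) = Cn ν + c • on}
  mul_mem' := by
    rintro a b ⟨c, hc⟩ ⟨d, hd⟩
    refine ⟨c + d, ?_⟩
    change (a : OO F ≃ₗ[F] OO F) ((b : OO F ≃ₗ[F] OO F) (Cn ν)) = _
    rw [hd, map_add, map_smul, map_on a.2, hc, add_smul, add_assoc]
  one_mem' := ⟨0, by rw [zero_smul, add_zero]; rfl⟩
  inv_mem' := by
    rintro a ⟨c, hc⟩
    refine ⟨-c, ?_⟩
    apply (a : OO F ≃ₗ[F] OO F).injective
    rw [map_add, map_smul, map_on a.2, hc]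
    change (a : OO F ≃ₗ[F] OO F) ((a : OO F ≃ₗ[F] OO F).symm (Cn ν)) = _
    rw [LinearEquiv.apply_symm_apply]
    module

theorem nm_Cn (ν : F) : nm (Cn ν) = ν := by
  simp [nm, Cn, det_fin_two_of]

theorem tr_Cn (ν : F) : tr (Cn ν) = 1 := by
  simp [tr, Cn]

theorem St_ne_top [CharP F 2] {t : F} (ht0 : t ≠ 0) (ht1 : t ≠ 1) (ν : F) : St ν ≠ (⊤ : Subgroup (AutO F)) := by
  intro htop
  let e : OO F := (!![0, -ν; 1, 1], !![1, 0; 0, 0])
  have he : tr e = 1 := by simp [e, tr]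
  have hn : nm e = ν := by simp [e, nm, det_fin_two_of]
  have h := rel_Cn ht0 ht1 e he
  rw [hn] at h
  obtain ⟨g, hg, hge⟩ := h.symm
  have h1 : (⟨g, hg⟩ : AutO F) ∈ St ν := by rw [htop]; trivial
  obtain ⟨c, hc⟩ := h1
  have h2 : e = Cn ν + c • on := by rw [← hge]; exact hc
  have h3 := congrArg (fun u : OO F => u.2 0 0) h2
  simp [e, Cn, on] at h3

theorem conj_St [CharP F 2] {t : F} (ht0 : t ≠ 0) (ht1 : t ≠ 1) {g : AutO F} {e : OO F} (he : tr e = 1) {c : F}
    (hc : (g : OO F ≃ₗ[F] OO F) e - e = c • on) : ∃ x : AutO F, x * g * x⁻¹ ∈ St (nm e) := by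
  obtain ⟨h, hh, hhe⟩ := rel_Cn ht0 ht1 e he
  refine ⟨⟨h, hh⟩, c, ?_⟩
  change h ((g : OO F ≃ₗ[F] OO F) (h.symm (Cn (nm e)))) = _
  have h1 : h.symm (Cn (nm e)) = e := by rw [← hhe, LinearEquiv.symm_apply_apply]
  have h2 : (g : OO F ≃ₗ[F] OO F) e = e + c • on := by rw [← hc]; abel
  rw [h1, h2, map_add, map_smul, map_on hh, hhe]

end

end Oct

theorem Cov.of_equiv {G H : Type*} [Group G] [Group H] (e : G ≃* H) (h : Cov H) : Cov G := by
  obtain ⟨A, B, hA, hB, h⟩ := h
  refine ⟨A.comap e.toMonoidHom, B.comap e.toMonoidHom, ?_, ?_, fun g => ?_⟩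
  · intro htop
    apply hA
    rw [eq_top_iff]
    intro x _
    obtain ⟨y, rfl⟩ := e.surjective x
    have : y ∈ A.comap e.toMonoidHom := by rw [htop]; trivial
    exact this
  · intro htop
    apply hB
    rw [eq_top_iff]
    intro x _
    obtain ⟨y, rfl⟩ := e.surjective x
    have : y ∈ B.comap e.toMonoidHom := by rw [htop]; trivial
    exact this
  · obtain ⟨x, hx⟩ := h (e g)
    obtain ⟨y, rfl⟩ := e.surjective x
    refine ⟨y, ?_⟩
    rcases hx with hx | hx
    · left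
      change e (y * g * y⁻¹) ∈ A
      rwa [map_mul, map_mul, map_inv]
    · right
      change e (y * g * y⁻¹) ∈ B
      rwa [map_mul, map_mul, map_inv]

open SpE Oct in
theorem cov_G2 {F : Type*} [Field F] [Fintype F] (a : ℕ) (ha : 2 ≤ a) (hF : Fintype.card F = 2 ^ a) :
    Cov (Cfsg.Lie.G2 F) := by
  classical
  haveI : CharP F 2 := by
    obtain ⟨p, hp⟩ := CharP.exists F
    haveI := hp
    obtain ⟨n, hpp, hn⟩ := FiniteField.card F p
    have : p = 2 := by
      rw [hF] at hn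
      have h1 : p ∣ 2 ^ a := by rw [hn]; exact dvd_pow_self p n.2.ne'
      exact (Nat.prime_dvd_prime_iff_eq hpp Nat.prime_two).1 (hpp.dvd_of_dvd_pow h1)
    rw [← this]; exact hp
  obtain ⟨t, ht0, ht1⟩ : ∃ t : F, t ≠ 0 ∧ t ≠ 1 := by
    by_contra hcon
    push Not at hcon
    have h1 : (Finset.univ : Finset F) ⊆ {0, 1} := by
      intro x _
      rw [Finset.mem_insert, Finset.mem_singleton]
      by_cases h : x = 0
      · exact Or.inl h
      · exact Or.inr (hcon x h)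
    have h2 := Finset.card_le_card h1
    rw [Finset.card_univ, hF] at h2
    have h3 := Finset.card_le_two (a := (0 : F)) (b := 1)
    have h4 : 2 ^ 2 ≤ 2 ^ a := Nat.pow_le_pow_right (by norm_num) ha
    omega
  obtain ⟨n0, hn0⟩ : ∃ n0 : F, n0 ∉ (wp F).range := by
    by_contra hcon
    push Not at hcon
    have : (wp F).range = ⊤ := by
      rw [eq_top_iff]; intro x _; exact hcon x
    have h1 := index_wp (F := F)
    rw [this, AddSubgroup.index_top] at h1
    omega
  apply Cov.of_equiv (g2Equiv F)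
  refine ⟨Oct.St (0 : F), Oct.St n0, Oct.St_ne_top ht0 ht1 0, Oct.St_ne_top ht0 ht1 n0, fun g => ?_⟩
  obtain ⟨e, he, c, hc⟩ := exists_fixed g.2
  have hshift : ∀ s : F, tr (e + s • on) = 1 ∧ nm (e + s • on) = nm e + s ^ 2 + s ∧
      (g : OO F ≃ₗ[F] OO F) (e + s • on) - (e + s • on) = c • on := by
    intro s
    refine ⟨?_, ?_, ?_⟩
    · rw [Oct.tr_add, Oct.tr_smul, tr_on, he, mul_zero, add_zero]
    · have h1 : nm (s • (on : OO F)) = s ^ 2 := by
        simp [nm, on]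
      have h2 : Bo e (s • on) = s := by
        have : Bo e (s • on) = s * Bo on e := by
          simp [Bo, on]; ring
        rw [this, Bo_on, he, mul_one]
      rw [nm_add, h1, h2]
    · rw [map_add, map_smul, map_on g.2, ← hc]
      abel
  by_cases hcase : nm e ∈ (wp F).range
  · obtain ⟨s, hs⟩ := hcase
    rw [wp_apply] at hs
    obtain ⟨h1, h2, h3⟩ := hshift s
    obtain ⟨x, hx⟩ := Oct.conj_St ht0 ht1 h1 h3
    have h4 : nm (e + s • on) = 0 := by rw [h2, ← hs, add_assoc, CharTwo.add_self_eq_zero]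
    rw [h4] at hx
    exact ⟨x, Or.inl hx⟩
  · have h1 : n0 + nm e ∈ (wp F).range := by
      rw [AddSubgroup.add_mem_iff_of_index_two index_wp]
      exact ⟨fun h => absurd h hn0, fun h => absurd h hcase⟩
    obtain ⟨s, hs⟩ := h1
    rw [wp_apply] at hs
    obtain ⟨h1, h2, h3⟩ := hshift s
    obtain ⟨x, hx⟩ := Oct.conj_St ht0 ht1 h1 h3
    have h4 : nm (e + s • on) = n0 := by
      rw [h2, add_assoc, hs, add_comm n0, ← add_assoc, CharTwo.add_self_eq_zero, zero_add]
    rw [h4] at hx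
    exact ⟨x, Or.inr hx⟩

end Cfsg.Agent.Cov44
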