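import Mathlib

/-!
Roots of irreducible polynomials in `F[g]`; conjugacy of endomorphisms killed by an irreducible polynomial.
-/

set_option autoImplicit false

namespace Cfsg.Agent.Cov44

open Polynomial Module

variable {F : Type*} [Field F] [Finite F]

theorem exists_irred (F : Type*) [Field F] [Finite F] (r : ℕ) (hr : r ≠ 0) : ∃ h : F[X], Irreducible h ∧ h.Monic ∧ h.natDegree = r := by
  obtain ⟨p, hp⟩ := CharP.exists F
  haveI := hp
  haveI : Fact p.Prime := ⟨CharP.char_is_prime F p⟩
  haveI : NeZero r := ⟨hr⟩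
  obtain ⟨α, hα⟩ := Field.exists_primitive_element F (FiniteField.Extension F p r)
  have hint : IsIntegral F α := IsIntegral.of_finite F α
  refine ⟨minpoly F α, minpoly.irreducible hint, minpoly.monic hint, ?_⟩
  rw [← IntermediateField.adjoin.finrank hint, hα, IntermediateField.finrank_top', FiniteField.finrank_extension]

theorem comp_pow_card (h s : F[X]) (k : ℕ) : (h.comp s) ^ (Nat.card F) ^ k = h.comp (s ^ (Nat.card F) ^ k) := by
  haveI := Fintype.ofFinite F
  rw [Nat.card_eq_fintype_card]
  have one : ∀ s : F[X], (h.comp s) ^ (Fintype.card F) = h.comp (s ^ (Fintype.card F)) := by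
    intro s
    rw [← pow_comp, ← FiniteField.expand_card, expand_eq_comp_X_pow, comp_assoc, pow_comp, X_comp]
  induction k generalizing s with
  | zero => rw [pow_zero, pow_one, pow_one]
  | succ k ih => rw [pow_succ, pow_mul, ih, one, ← pow_mul]

theorem exists_root_local {f h : F[X]} (hf : Irreducible f) (hh : Irreducible h) (hd : h.natDegree ∣ f.natDegree) :
    ∃ s : F[X], f ∣ h.comp s := by
  haveI := Fact.mk hf
  haveI := Fact.mk hh
  haveI : FiniteDimensional F (AdjoinRoot f) := (AdjoinRoot.powerBasis hf.ne_zero).finite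
  haveI : FiniteDimensional F (AdjoinRoot h) := (AdjoinRoot.powerBasis hh.ne_zero).finite
  haveI : Finite (AdjoinRoot f) := Module.finite_of_finite F
  haveI : Finite (AdjoinRoot h) := Module.finite_of_finite F
  obtain ⟨φ⟩ := FiniteField.nonempty_algHom_of_finrank_dvd (F := F) (K := AdjoinRoot h) (L := AdjoinRoot f) (by
    rw [(AdjoinRoot.powerBasis hf.ne_zero).finrank, (AdjoinRoot.powerBasis hh.ne_zero).finrank, AdjoinRoot.powerBasis_dim,
      AdjoinRoot.powerBasis_dim]
    exact hd)
  obtain ⟨s, hs⟩ := AdjoinRoot.mk_surjective (φ (AdjoinRoot.root h))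
  refine ⟨s, ?_⟩
  rw [← AdjoinRoot.mk_eq_zero]
  have h1 : AdjoinRoot.mk f (h.comp s) = aeval (AdjoinRoot.mk f s) h := by
    have := Polynomial.aeval_algHom_apply (AdjoinRoot.mkₐ (R := F) f) s h
    exact this.symm
  rw [h1, hs, Polynomial.aeval_algHom_apply, AdjoinRoot.aeval_eq, AdjoinRoot.mk_self, map_zero]

theorem dvd_pow_card_factors {χ P : F[X]} (hχ : χ ≠ 0) (h : ∀ f, Irreducible f → f ∣ χ → f ∣ P) :
    ∃ n, χ ∣ P ^ n := by
  induction χ using UniqueFactorizationMonoid.induction_on_prime with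
  | h₁ => exact absurd rfl hχ
  | h₂ x hx => exact ⟨0, by rw [pow_zero]; exact hx.dvd⟩
  | h₃ a q ha hq ih =>
    obtain ⟨n, hn⟩ := ih ha (fun f hf hfa => h f hf (hfa.mul_left _))
    refine ⟨n + 1, ?_⟩
    rw [pow_succ, mul_comm q a]
    exact mul_dvd_mul hn (h q hq.irreducible (dvd_mul_right _ _))

theorem exists_root_poly {χ h : F[X]} (hχ : χ ≠ 0) (hh : Irreducible h)
    (hr : ∀ f, Irreducible f → f ∣ χ → h.natDegree ∣ f.natDegree) : ∃ s : F[X], χ ∣ h.comp s := by
  classical
  set S := (UniqueFactorizationMonoid.normalizedFactors χ).toFinset with hS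
  have hirr : ∀ f ∈ S, Irreducible f := fun f hf =>
    UniqueFactorizationMonoid.irreducible_of_normalized_factor f (Multiset.mem_toFinset.1 hf)
  have hmon : ∀ f ∈ S, normalize f = f := fun f hf =>
    UniqueFactorizationMonoid.normalize_normalized_factor f (Multiset.mem_toFinset.1 hf)
  have hdvd : ∀ f ∈ S, f ∣ χ := fun f hf =>
    UniqueFactorizationMonoid.dvd_of_mem_normalizedFactors (Multiset.mem_toFinset.1 hf)
  have hex : ∀ f : S, ∃ s : F[X], (f : F[X]) ∣ h.comp s := fun f =>
    exists_root_local (hirr f f.2) hh (hr f (hirr f f.2) (hdvd f f.2))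
  choose sf hsf using hex
  obtain ⟨s, hs⟩ := IsDedekindDomain.exists_forall_sub_mem_ideal (R := F[X]) (s := S) (fun f => Ideal.span {f}) (fun _ => 1)
    (fun f hf => (Ideal.span_singleton_prime (hirr f hf).ne_zero).2 (hirr f hf).prime |> fun h => Ideal.prime_of_isPrime
      (by rw [Ne, Ideal.span_singleton_eq_bot]; exact (hirr f hf).ne_zero) h)
    (fun f hf g hg hne heq => hne (by
      rw [Ideal.span_singleton_eq_span_singleton] at heq
      rw [← hmon f hf, ← hmon g hg]
      exact normalize_eq_normalize_iff_associated.2 heq)) sf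
  have hall : ∀ f, Irreducible f → f ∣ χ → f ∣ h.comp s := by
    intro f hf hfd
    obtain ⟨g, hg, hfg⟩ := UniqueFactorizationMonoid.exists_mem_normalizedFactors_of_dvd hχ hf hfd
    have hgS : g ∈ S := Multiset.mem_toFinset.2 hg
    refine hfg.dvd.trans ?_
    have h1 := hs g hgS
    rw [pow_one, Ideal.mem_span_singleton] at h1
    have h2 : g ∣ h.comp s - h.comp (sf ⟨g, hgS⟩) := by
      refine h1.trans ?_
      have := Polynomial.sub_dvd_eval_sub s (sf ⟨g, hgS⟩) (h.map C)
      rw [eval_map, eval_map] at this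
      exact this
    exact (dvd_sub_left (hsf ⟨g, hgS⟩)).1 h2
  obtain ⟨n, hn⟩ := dvd_pow_card_factors hχ hall
  refine ⟨s ^ (Nat.card F) ^ n, ?_⟩
  rw [← comp_pow_card]
  refine hn.trans (pow_dvd_pow _ ?_)
  exact (Nat.lt_pow_self (Finite.one_lt_card)).le

section conj

variable {V : Type*} [AddCommGroup V] [Module F V] [FiniteDimensional F V]

omit [Finite F] [FiniteDimensional F V] in
/-- the module structure -/
theorem lift_aux {h : F[X]} {s : End F V} (hs : aeval s h = 0) :
    ∀ a : F[X], a ∈ Ideal.span {h} → (aeval s : F[X] →ₐ[F] End F V) a = 0 := by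
  intro a ha
  obtain ⟨c, rfl⟩ := Ideal.mem_span_singleton.1 ha
  rw [map_mul, hs, zero_mul]

omit [Finite F] in
theorem exists_equiv_mod {K : Type*} [Field K] [Algebra F K] [FiniteDimensional F K] (V W : Type*) [AddCommGroup V] [AddCommGroup W]
    [Module F V] [Module F W] [FiniteDimensional F V] [FiniteDimensional F W] [Module K V] [Module K W]
    [IsScalarTower F K V] [IsScalarTower F K W] (h : finrank F V = finrank F W) :
    ∃ P : V ≃ₗ[F] W, ∀ (k : K) (x : V), P (k • x) = k • P x := by
  haveI : Module.Finite K V := Module.Finite.of_restrictScalars_finite F K V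
  haveI : Module.Finite K W := Module.Finite.of_restrictScalars_finite F K W
  have d1 := Module.finrank_mul_finrank F K V
  have d2 := Module.finrank_mul_finrank F K W
  have d3 : finrank K V = finrank K W :=
    Nat.eq_of_mul_eq_mul_left (Module.finrank_pos (R := F) (M := K)) (d1.trans (h.trans d2.symm))
  obtain ⟨e⟩ := FiniteDimensional.nonempty_linearEquiv_of_finrank_eq d3
  exact ⟨e.restrictScalars F, fun k x => e.map_smul k x⟩

omit [Finite F] in
theorem exists_conj {h : F[X]} (hh : Irreducible h) {s1 s2 : End F V} (h1 : aeval s1 h = 0) (h2 : aeval s2 h = 0) :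
    ∃ P : V ≃ₗ[F] V, ∀ x, P (s1 x) = s2 (P x) := by
  let K := F[X] ⧸ Ideal.span {h}
  haveI hmax : (Ideal.span {h} : Ideal F[X]).IsMaximal := PrincipalIdealRing.isMaximal_of_irreducible hh
  letI : Field K := Ideal.Quotient.field _
  let φ (s : End F V) (hs : aeval s h = 0) : K →ₐ[F] End F V := Ideal.Quotient.liftₐ (Ideal.span {h}) (aeval s) (lift_aux hs)
  have hφX : ∀ (s : End F V) (hs : aeval s h = 0), φ s hs (Ideal.Quotient.mk _ X) = s := by
    intro s hs
    change aeval s X = s
    exact aeval_X s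
  haveI hfK : FiniteDimensional F K := (AdjoinRoot.powerBasis hh.ne_zero).finite
  let M1 : Module K V := Module.compHom V (φ s1 h1).toRingHom
  let M2 : Module K V := Module.compHom V (φ s2 h2).toRingHom
  have t1 : @IsScalarTower F K V _ M1.toSMul _ := by
    letI := M1
    refine ⟨fun c k v => ?_⟩
    change (φ s1 h1 (c • k)) v = c • (φ s1 h1 k) v
    rw [map_smul]; rfl
  have t2 : @IsScalarTower F K V _ M2.toSMul _ := by
    letI := M2
    refine ⟨fun c k v => ?_⟩
    change (φ s2 h2 (c • k)) v = c • (φ s2 h2 k) v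
    rw [map_smul]; rfl
  obtain ⟨e, he⟩ := @exists_equiv_mod F _ K _ _ hfK V V _ _ _ _ _ _ M1 M2 t1 t2 rfl
  refine ⟨e, fun x => ?_⟩
  have h3 : e ((φ s1 h1 (Ideal.Quotient.mk _ X)) x) = (φ s2 h2 (Ideal.Quotient.mk _ X)) (e x) := he (Ideal.Quotient.mk _ X) x
  rw [hφX s1 h1, hφX s2 h2] at h3
  exact h3

/-- determinants of commuting automorphisms -/
theorem exists_comm_det {h : F[X]} (hh : Irreducible h) {s : End F V} (hs : aeval s h = 0) (hV : 0 < finrank F V)
    {d : F} (hd : d ≠ 0) : ∃ C : V ≃ₗ[F] V, (∀ x, C (s x) = s (C x)) ∧ LinearMap.det (C : V →ₗ[F] V) = d := by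
  classical
  let K := F[X] ⧸ Ideal.span {h}
  haveI hmax : (Ideal.span {h} : Ideal F[X]).IsMaximal := PrincipalIdealRing.isMaximal_of_irreducible hh
  letI : Field K := Ideal.Quotient.field _
  let φ : K →ₐ[F] End F V := Ideal.Quotient.liftₐ (Ideal.span {h}) (aeval s) (lift_aux hs)
  have hφX : φ (Ideal.Quotient.mk _ X) = s := by
    change aeval s X = s
    exact aeval_X s
  haveI hfK : FiniteDimensional F K := (AdjoinRoot.powerBasis hh.ne_zero).finite
  letI M : Module K V := Module.compHom V φ.toRingHom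
  haveI t : IsScalarTower F K V := by
    refine ⟨fun c k v => ?_⟩
    change (φ (c • k)) v = c • (φ k) v
    rw [map_smul]; rfl
  haveI : Module.Finite K V := Module.Finite.of_restrictScalars_finite F K V
  haveI : Finite K := Module.finite_of_finite F
  obtain ⟨α, hα⟩ := FiniteField.norm_surjective F K d
  have hα0 : α ≠ 0 := by
    rintro rfl
    apply hd
    rw [← hα, Algebra.norm_zero]
  have hpos : 0 < finrank K V := by
    have h1 := Module.finrank_mul_finrank F K V
    rcases Nat.eq_zero_or_pos (finrank K V) with h2 | h2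
    · rw [h2, mul_zero] at h1; omega
    · exact h2
  let b := Module.finBasis K V
  let D : V →ₗ[K] V := Matrix.toLin b b (Matrix.diagonal (fun i => if i = (⟨0, hpos⟩ : Fin (finrank K V)) then α else 1))
  have hD : LinearMap.det D = α := by
    rw [LinearMap.det_toLin, Matrix.det_diagonal, Finset.prod_ite_eq' Finset.univ, if_pos (Finset.mem_univ _)]
  have hdet : LinearMap.det (D.restrictScalars F) = d := by
    rw [LinearMap.det_restrictScalars, hD, hα]
  let C : V ≃ₗ[F] V := LinearEquiv.ofIsUnitDet (f := D.restrictScalars F) (v := Module.finBasis F V) (v' := Module.finBasis F V) (by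
    rw [LinearMap.det_toMatrix, hdet]; exact isUnit_iff_ne_zero.2 hd)
  refine ⟨C, fun x => ?_, ?_⟩
  · have h1 : s x = (Ideal.Quotient.mk (Ideal.span {h}) X : K) • x := by
      change s x = (φ (Ideal.Quotient.mk _ X)) x
      rw [hφX]
    have h2 : s (C x) = (Ideal.Quotient.mk (Ideal.span {h}) X : K) • (C x) := by
      change s (C x) = (φ (Ideal.Quotient.mk _ X)) (C x)
      rw [hφX]
    rw [h1, h2]
    exact D.map_smul _ _
  · rw [← hdet]
    rfl

end conj

end Cfsg.Agent.Cov44
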