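import Cfsg.Agent.Cov44.Basic
import Cfsg.Agent.Cov44.Root

/-!
`PSL_n`, `n = 2, 3, 4`, is covered by the conjugates of two proper subgroups.
-/

set_option autoImplicit false

namespace Cfsg.Agent.Cov44

open Polynomial Module

variable {F : Type*} [Field F] [Finite F] {n : ℕ}

/-- the centraliser of a matrix -/
def Cj (j : Matrix (Fin n) (Fin n) F) : Subgroup (Matrix.SpecialLinearGroup (Fin n) F) where
  carrier := {g | g.1 * j = j * g.1}
  mul_mem' := by
    intro a b ha hb
    change (a * b).1 * j = j * (a * b).1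
    change a.1 * j = j * a.1 at ha
    change b.1 * j = j * b.1 at hb
    rw [Matrix.SpecialLinearGroup.coe_mul, mul_assoc, hb, ← mul_assoc, ha, mul_assoc]
  one_mem' := by
    change (1 : Matrix.SpecialLinearGroup (Fin n) F).1 * j = j * (1 : Matrix.SpecialLinearGroup (Fin n) F).1
    rw [Matrix.SpecialLinearGroup.coe_one, one_mul, mul_one]
  inv_mem' := by
    intro a ha
    change (a⁻¹).1 * j = j * (a⁻¹).1
    change a.1 * j = j * a.1 at ha
    have h1 : (a⁻¹).1 * a.1 = 1 := by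
      rw [← Matrix.SpecialLinearGroup.coe_mul, inv_mul_cancel, Matrix.SpecialLinearGroup.coe_one]
    have h2 : a.1 * (a⁻¹).1 = 1 := by
      rw [← Matrix.SpecialLinearGroup.coe_mul, mul_inv_cancel, Matrix.SpecialLinearGroup.coe_one]
    calc (a⁻¹).1 * j
        = (a⁻¹).1 * (j * a.1) * (a⁻¹).1 := by
          rw [mul_assoc, mul_assoc j, h2, mul_one]
      _ = j * (a⁻¹).1 := by
          rw [← ha, ← mul_assoc, h1, one_mul]

omit [Finite F] in
theorem mem_Cj {j : Matrix (Fin n) (Fin n) F} {g : Matrix.SpecialLinearGroup (Fin n) F} :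
    g ∈ Cj j ↔ g.1 * j = j * g.1 := Iff.rfl

omit [Finite F] in
theorem Cj_ne_top {h : F[X]} (hh : Irreducible h) (hd : 2 ≤ h.natDegree) (hn : 0 < n) {j : Matrix (Fin n) (Fin n) F} (hj : aeval j h = 0) :
    Cj j ≠ ⊤ := by
  intro htop
  have h1 : j ∈ Set.range (Matrix.scalar (Fin n)) := by
    apply Matrix.mem_range_scalar_of_commute_transvectionStruct
    intro t
    have h2 : (⟨t.toMatrix, t.det⟩ : Matrix.SpecialLinearGroup (Fin n) F) ∈ Cj j := by rw [htop]; trivial
    exact h2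
  obtain ⟨c, rfl⟩ := h1
  have h2 : aeval (Matrix.scalar (Fin n) c) h = Matrix.scalar (Fin n) (h.eval c) := by
    have := Polynomial.aeval_algebraMap_apply (Matrix (Fin n) (Fin n) F) c h
    rw [Polynomial.coe_aeval_eq_eval] at this
    exact this
  rw [h2] at hj
  have h3 : h.eval c = 0 := by
    have := congrFun (congrFun hj ⟨0, hn⟩) ⟨0, hn⟩
    simpa using this
  have h5 : h.natDegree = 1 := Polynomial.natDegree_eq_of_degree_eq_some (Polynomial.degree_eq_one_of_irreducible_of_root hh h3)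
  omega

omit [Finite F] in
theorem center_le_Cj (j : Matrix (Fin n) (Fin n) F) : Subgroup.center (Matrix.SpecialLinearGroup (Fin n) F) ≤ Cj j := by
  intro z hz
  obtain ⟨r, _, hr⟩ := Matrix.SpecialLinearGroup.mem_center_iff.1 hz
  rw [mem_Cj, ← hr]
  exact (Matrix.scalar_commute r (fun _ => mul_comm _ _) j).eq

omit [Finite F] in
theorem exists_mulVec_of_root {g : Matrix (Fin n) (Fin n) F} {c : F} (h : g.charpoly.IsRoot c) :
    ∃ v : Fin n → F, v ≠ 0 ∧ g.mulVec v = c • v := by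
  have h1 : (Matrix.toLin' g).charpoly.IsRoot c := by rwa [Matrix.charpoly_toLin']
  have h2 := (Module.End.hasEigenvalue_iff_isRoot_charpoly (Matrix.toLin' g) c).2 h1
  obtain ⟨v, hv⟩ := h2.exists_hasEigenvector
  exact ⟨v, hv.2, by have := hv.apply_eq_smul; rwa [Matrix.toLin'_apply] at this⟩

/-- the covering -/
theorem cov_SL {h : F[X]} (hh : Irreducible h) (hd : 2 ≤ h.natDegree) (hn : 2 ≤ n)
    (hχ : ∀ χ : F[X], χ.Monic → χ.natDegree = n → (∀ c, ¬ χ.IsRoot c) → ∀ f, Irreducible f → f ∣ χ → h.natDegree ∣ f.natDegree) :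
    Cov (Matrix.ProjectiveSpecialLinearGroup (Fin n) F) := by
  classical
  let p0 : Projectivization F (Fin n → F) := Projectivization.mk F (Pi.single (⟨0, by omega⟩ : Fin n) 1) (by
    intro h0
    have := congrFun h0 ⟨0, by omega⟩
    simp at this)
  let p1 : Projectivization F (Fin n → F) := Projectivization.mk F (Pi.single (⟨1, by omega⟩ : Fin n) 1) (by
    intro h0
    have := congrFun h0 ⟨1, by omega⟩
    simp at this)
  have hp : p0 ≠ p1 := by
    intro h0
    rw [Projectivization.mk_eq_mk_iff'] at h0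
    obtain ⟨a, ha⟩ := h0
    have := congrFun ha ⟨0, by omega⟩
    simp [Pi.single_apply, Fin.ext_iff] at this
  let H := MulAction.stabilizer (Matrix.SpecialLinearGroup (Fin n) F) p0
  have hHt : H ≠ ⊤ := by
    intro htop
    obtain ⟨g, hg⟩ := MulAction.exists_smul_eq (Matrix.SpecialLinearGroup (Fin n) F) p0 p1
    have : g ∈ H := by rw [htop]; trivial
    exact hp ((MulAction.mem_stabilizer_iff.1 this).symm.trans hg)
  have hHc : Subgroup.center (Matrix.SpecialLinearGroup (Fin n) F) ≤ H := by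
    intro z hz
    rw [← Projectivization.SL_mulAction_ker] at hz
    rw [MulAction.mem_stabilizer_iff]
    have := congrArg (fun e : Equiv.Perm (Projectivization F (Fin n → F)) => e p0) (MonoidHom.mem_ker.1 hz)
    exact this
  have hH : ∀ g : Matrix.SpecialLinearGroup (Fin n) F, (∃ c, (g : Matrix (Fin n) (Fin n) F).charpoly.IsRoot c) →
      ∃ x : Matrix.SpecialLinearGroup (Fin n) F, x * g * x⁻¹ ∈ H := by
    rintro g ⟨c, hc⟩
    obtain ⟨v, hv0, hv⟩ := exists_mulVec_of_root hc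
    let pv : Projectivization F (Fin n → F) := Projectivization.mk F v hv0
    have hg : g • pv = pv := by
      change g • Projectivization.mk F v hv0 = Projectivization.mk F v hv0
      rw [Projectivization.smul_mk, Projectivization.mk_eq_mk_iff']
      exact ⟨c, hv.symm⟩
    obtain ⟨x, hx⟩ := MulAction.exists_smul_eq (Matrix.SpecialLinearGroup (Fin n) F) pv p0
    refine ⟨x, ?_⟩
    rw [MulAction.mem_stabilizer_iff, ← hx, mul_smul, mul_smul, inv_smul_smul, hg]
  by_cases hall : ∀ g : Matrix.SpecialLinearGroup (Fin n) F, ∃ c, (g : Matrix (Fin n) (Fin n) F).charpoly.IsRoot c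
  · exact cov_quot _ H H hHt hHt hHc hHc (fun g => by
      obtain ⟨x, hx⟩ := hH g (hall g)
      exact ⟨x, Or.inl hx⟩)
  -- a polynomial in `g`
  have hS : ∀ g : Matrix.SpecialLinearGroup (Fin n) F, (¬ ∃ c, (g : Matrix (Fin n) (Fin n) F).charpoly.IsRoot c) →
      ∃ s : F[X], aeval (aeval (Matrix.toLin' (g : Matrix (Fin n) (Fin n) F)) s) h = 0 := by
    intro g hg
    push Not at hg
    obtain ⟨s, hs⟩ := exists_root_poly (Matrix.charpoly_monic (g : Matrix (Fin n) (Fin n) F)).ne_zero hh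
      (hχ _ (Matrix.charpoly_monic _) (by rw [Matrix.charpoly_natDegree_eq_dim, Fintype.card_fin]) hg)
    refine ⟨s, ?_⟩
    rw [← Polynomial.aeval_comp]
    obtain ⟨k, hk⟩ := hs
    rw [hk, map_mul]
    have h1 : aeval (Matrix.toLin' (g : Matrix (Fin n) (Fin n) F)) (g : Matrix (Fin n) (Fin n) F).charpoly = 0 := by
      rw [← Matrix.charpoly_toLin']
      exact LinearMap.aeval_self_charpoly _
    rw [h1, zero_mul]
  push Not at hall
  obtain ⟨g0, hg0⟩ := hall
  obtain ⟨s0, hs0⟩ := hS g0 (by push Not; exact hg0)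
  set J := aeval (Matrix.toLin' (g0 : Matrix (Fin n) (Fin n) F)) s0 with hJ
  have hJm : aeval (LinearMap.toMatrix' J) h = 0 := by
    have h1 := Polynomial.aeval_algHom_apply (LinearMap.toMatrixAlgEquiv' (R := F) (n := Fin n)).toAlgHom J h
    rw [hs0, map_zero] at h1
    exact h1
  refine cov_quot _ H (Cj (LinearMap.toMatrix' J)) hHt (Cj_ne_top hh hd (by omega) hJm) hHc (center_le_Cj _) ?_
  intro g
  by_cases hg : ∃ c, (g : Matrix (Fin n) (Fin n) F).charpoly.IsRoot c
  · obtain ⟨x, hx⟩ := hH g hg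
    exact ⟨x, Or.inl hx⟩
  obtain ⟨s, hs⟩ := hS g hg
  set T := Matrix.toLin' (g : Matrix (Fin n) (Fin n) F) with hT
  obtain ⟨P, hP⟩ := exists_conj hh hs hs0
  have hPd : LinearMap.det (P : (Fin n → F) →ₗ[F] (Fin n → F)) ≠ 0 := (LinearEquiv.isUnit_det' P).ne_zero
  obtain ⟨C, hC1, hC2⟩ := exists_comm_det hh hs0 (by rw [finrank_fintype_fun_eq_card, Fintype.card_fin]; omega) (inv_ne_zero hPd)
  let P' := P.trans C
  have hP' : ∀ x, P' ((aeval T s) x) = J (P' x) := by
    intro x
    change C (P _) = J (C (P x))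
    rw [hP, hC1]
  have hdet : LinearMap.det (P' : (Fin n → F) →ₗ[F] (Fin n → F)) = 1 := by
    have : (P' : (Fin n → F) →ₗ[F] (Fin n → F)) = (C : (Fin n → F) →ₗ[F] (Fin n → F)) ∘ₗ (P : (Fin n → F) →ₗ[F] (Fin n → F)) := rfl
    rw [this, LinearMap.det_comp, hC2, inv_mul_cancel₀ hPd]
  let x : Matrix.SpecialLinearGroup (Fin n) F := ⟨LinearMap.toMatrix' (P' : (Fin n → F) →ₗ[F] (Fin n → F)), by
    rw [LinearMap.det_toMatrix', hdet]⟩
  refine ⟨x, Or.inr ?_⟩
  have hxv : ∀ v, (x : Matrix (Fin n) (Fin n) F).mulVec v = P' v := fun v => LinearMap.toMatrix'_mulVec _ _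
  have hcomm : ∀ v, T ((aeval T s) v) = (aeval T s) (T v) := by
    intro v
    have : T * (aeval T s) = (aeval T s) * T := by
      have h1 : aeval T (X * s) = aeval T (s * X) := by rw [mul_comm]
      rw [map_mul, map_mul, aeval_X] at h1
      exact h1
    exact congrArg (fun L : End F (Fin n → F) => L v) this
  -- `x g = g' x`
  rw [mem_Cj]
  have hx1 : ∀ v, (x * g * x⁻¹).1.mulVec (P' v) = P' (T v) := by
    intro v
    rw [← hxv, Matrix.mulVec_mulVec, ← Matrix.SpecialLinearGroup.coe_mul, inv_mul_cancel_right, Matrix.SpecialLinearGroup.coe_mul,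
      ← Matrix.mulVec_mulVec, hxv, hT, Matrix.toLin'_apply]
  apply Matrix.ext_of_mulVec_single
  intro i
  obtain ⟨v, hv⟩ := P'.surjective (Pi.single i 1)
  rw [← hv, ← Matrix.mulVec_mulVec, ← Matrix.mulVec_mulVec, LinearMap.toMatrix'_mulVec, hx1, LinearMap.toMatrix'_mulVec,
    ← hP', ← hP', hx1, hcomm]

omit [Finite F] in
theorem small_degree {χ : F[X]} (hm : χ.Monic) (hroot : ∀ c, ¬ χ.IsRoot c) {f : F[X]} (hf : Irreducible f) (hfd : f ∣ χ) :
    f.natDegree ≠ 0 ∧ f.natDegree ≠ 1 ∧ (χ.natDegree = f.natDegree ∨ f.natDegree + 2 ≤ χ.natDegree) := by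
  have key : ∀ g : F[X], g ∣ χ → g.natDegree ≠ 1 := by
    rintro g ⟨k, hk⟩ hg
    obtain ⟨c, hc⟩ := Polynomial.exists_root_of_degree_eq_one ((Polynomial.degree_eq_iff_natDegree_eq_of_pos one_pos).2 hg)
    exact hroot c (by rw [hk]; exact hc.dvd (dvd_mul_right _ _))
  refine ⟨hf.natDegree_pos.ne', key f hfd, ?_⟩
  obtain ⟨k, hk⟩ := hfd
  have hk1 := key k ⟨f, by rw [hk, mul_comm]⟩
  have hk0 : k ≠ 0 := by
    rintro rfl
    rw [mul_zero] at hk
    exact hm.ne_zero hk
  have hdeg : χ.natDegree = f.natDegree + k.natDegree := by rw [hk, Polynomial.natDegree_mul hf.ne_zero hk0]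
  omega

theorem cov_PSL2 : Cov (Matrix.ProjectiveSpecialLinearGroup (Fin 2) F) := by
  obtain ⟨h, hh, _, hd⟩ := exists_irred F 2 (by norm_num)
  refine cov_SL (h := h) hh (by omega) (by norm_num) ?_
  intro χ hm hn hr f hf hfd
  obtain ⟨h0, h1, h2⟩ := small_degree hm hr hf hfd
  have : f.natDegree = 2 := by omega
  rw [hd, this]

theorem cov_PSL3 : Cov (Matrix.ProjectiveSpecialLinearGroup (Fin 3) F) := by
  obtain ⟨h, hh, _, hd⟩ := exists_irred F 3 (by norm_num)
  refine cov_SL (h := h) hh (by omega) (by norm_num) ?_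
  intro χ hm hn hr f hf hfd
  obtain ⟨h0, h1, h2⟩ := small_degree hm hr hf hfd
  have : f.natDegree = 3 := by omega
  rw [hd, this]

theorem cov_PSL4 : Cov (Matrix.ProjectiveSpecialLinearGroup (Fin 4) F) := by
  obtain ⟨h, hh, _, hd⟩ := exists_irred F 2 (by norm_num)
  refine cov_SL (h := h) hh (by omega) (by norm_num) ?_
  intro χ hm hn hr f hf hfd
  obtain ⟨h0, h1, h2⟩ := small_degree hm hr hf hfd
  rw [hd]
  have : f.natDegree = 2 ∨ f.natDegree = 4 := by omega
  rcases this with h3 | h3 <;> rw [h3]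
  norm_num

end Cfsg.Agent.Cov44
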