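import Mathlib

/-!
Isometries of symplectic spaces: adjoint pairs, invariant nondegenerate subspaces.
-/

set_option autoImplicit false

namespace Cfsg.Agent.Cov44

open Polynomial Module

section gen

variable {F : Type*} [Field F] {V : Type*} [AddCommGroup V] [Module F V]

/-- adjoint pairs -/
def Adj (B : V →ₗ[F] V →ₗ[F] F) (T T' : End F V) : Prop := ∀ x y, B (T x) y = B x (T' y)

/-- symplectic form -/
structure Symp (B : V →ₗ[F] V →ₗ[F] F) : Prop where
  self : ∀ x, B x x = 0
  nd : ∀ x, (∀ y, B x y = 0) → x = 0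

/-- an isometry and its inverse -/
structure Isom (B : V →ₗ[F] V →ₗ[F] F) (g g' : End F V) : Prop where
  mul : g * g' = 1
  mul' : g' * g = 1
  adj : Adj B g g'
  adj' : Adj B g' g

variable {B : V →ₗ[F] V →ₗ[F] F}

theorem alt_swap (hB : ∀ x, B x x = 0) (x y : V) : B x y = - B y x := by
  have h := hB (x + y)
  simp only [map_add, LinearMap.add_apply, hB x, hB y, zero_add, add_zero] at h
  linear_combination h

theorem Symp.nd' (hB : Symp B) {y : V} (h : ∀ x, B x y = 0) : y = 0 :=
  hB.nd y fun x => by rw [alt_swap hB.self, h, neg_zero]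

theorem Symp.exists_ne (hB : Symp B) {x : V} (h : x ≠ 0) : ∃ y, B x y ≠ 0 := by
  by_contra hc
  push Not at hc
  exact h (hB.nd x hc)

theorem Adj.one : Adj B 1 1 := fun _ _ => rfl

theorem Adj.add {T T' U U' : End F V} (h : Adj B T T') (k : Adj B U U') : Adj B (T + U) (T' + U') := by
  intro x y
  rw [LinearMap.add_apply, LinearMap.add_apply, map_add, map_add, LinearMap.add_apply, h, k]

theorem Adj.sub {T T' U U' : End F V} (h : Adj B T T') (k : Adj B U U') : Adj B (T - U) (T' - U') := by
  intro x y
  rw [LinearMap.sub_apply, LinearMap.sub_apply, map_sub, map_sub, LinearMap.sub_apply, h, k]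

theorem Adj.neg {T T' : End F V} (h : Adj B T T') : Adj B (-T) (-T') := by
  intro x y
  rw [LinearMap.neg_apply, LinearMap.neg_apply, map_neg, map_neg, LinearMap.neg_apply, h]

theorem Adj.smul {T T' : End F V} (h : Adj B T T') (c : F) : Adj B (c • T) (c • T') := by
  intro x y
  rw [LinearMap.smul_apply, LinearMap.smul_apply, map_smul, map_smul, LinearMap.smul_apply, h]

theorem Adj.mul {T T' U U' : End F V} (h : Adj B T T') (k : Adj B U U') : Adj B (T * U) (U' * T') := by
  intro x y
  rw [Module.End.mul_apply, Module.End.mul_apply, h, k]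

theorem Adj.aeval {T T' : End F V} (h : Adj B T T') (p : F[X]) : Adj B (aeval T p) (aeval T' p) := by
  induction p using Polynomial.induction_on with
  | C a => rw [aeval_C, aeval_C]; exact (Adj.one (B := B)).smul a |> fun h => by
            rw [Algebra.algebraMap_eq_smul_one, ]; exact h
  | add p q hp hq => rw [map_add, map_add]; exact hp.add hq
  | monomial n a hn =>
    rw [pow_succ, ← mul_assoc, map_mul (Polynomial.aeval T) (C a * X ^ n) X, map_mul (Polynomial.aeval T') (C a * X ^ n) X,
      aeval_X, aeval_X]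
    have h2 := h.mul hn
    have h3 : Polynomial.aeval T (C a * X ^ n) * T = T * Polynomial.aeval T (C a * X ^ n) := by
      have : Polynomial.aeval T (C a * X ^ n * X) = Polynomial.aeval T (X * (C a * X ^ n)) := by rw [mul_comm]
      rwa [map_mul (Polynomial.aeval T) (C a * X ^ n) X, map_mul (Polynomial.aeval T) X (C a * X ^ n), aeval_X] at this
    rw [h3]
    exact h2

theorem Adj.unique (hB : Symp B) {T T' T'' : End F V} (h : Adj B T T') (k : Adj B T T'') : T' = T'' := by
  apply LinearMap.ext
  intro y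
  have : T' y - T'' y = 0 := hB.nd' fun x => by rw [map_sub, ← h, ← k, sub_self]
  exact sub_eq_zero.1 this

/-- self-adjoint operators -/
theorem sa_self (h2 : (2 : F) ≠ 0) (hB : ∀ x, B x x = 0) {T : End F V} (h : Adj B T T) (x : V) : B (T x) x = 0 := by
  have h1 := h x x
  rw [alt_swap hB x (T x)] at h1
  have : 2 * B (T x) x = 0 := by linear_combination h1
  exact (mul_eq_zero.1 this).resolve_left h2

theorem exists_adj [FiniteDimensional F V] (hB : Symp B) (T : End F V) : ∃ T', Adj B T T' ∧ Adj B T' T := by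
  have hinj : Function.Injective B := by
    rw [injective_iff_map_eq_zero]
    intro x hx
    exact hB.nd x fun y => by rw [hx]; rfl
  have hbij : Function.Bijective B := by
    refine ⟨hinj, ?_⟩
    exact (LinearMap.injective_iff_surjective_of_finrank_eq_finrank (Subspace.dual_finrank_eq).symm).1 hinj
  let E : V ≃ₗ[F] Module.Dual F V := LinearEquiv.ofBijective B hbij
  let T' : End F V := (E.symm : Module.Dual F V →ₗ[F] V) ∘ₗ (LinearMap.dualMap T) ∘ₗ B
  have h1 : ∀ y x, B (T' y) x = B y (T x) := by
    intro y x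
    have : B (T' y) = (LinearMap.dualMap T) (B y) := E.apply_symm_apply _
    rw [this]
    rfl
  refine ⟨T', fun x y => ?_, h1⟩
  rw [alt_swap hB.self x, h1, ← alt_swap hB.self]

/-- an alternating form, nondegenerate on a small subspace -/
theorem dim_two (hB : ∀ x, B x x = 0) (W : Submodule F V) [FiniteDimensional F W] (hW : finrank F W ≤ 3) (h0 : W ≠ ⊥)
    (hn : ∀ x ∈ W, (∀ y ∈ W, B x y = 0) → x = 0) :
    ∃ x ∈ W, ∃ y ∈ W, B x y ≠ 0 ∧ W ≤ Submodule.span F {x, y} := by
  obtain ⟨x, hx, hx0⟩ := Submodule.exists_mem_ne_zero_of_ne_bot h0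
  obtain ⟨y, hy, hxy⟩ : ∃ y ∈ W, B x y ≠ 0 := by
    by_contra hc
    push Not at hc
    exact hx0 (hn x hx hc)
  refine ⟨x, hx, y, hy, hxy, fun w hw => ?_⟩
  by_contra hc
  have hyx : B y x = - B x y := alt_swap hB y x
  set z : V := w - (B w y / B x y) • x - (B x w / B x y) • y with hz
  have hzW : z ∈ W := W.sub_mem (W.sub_mem hw (W.smul_mem _ hx)) (W.smul_mem _ hy)
  have hz0 : z ≠ 0 := by
    intro h
    apply hc
    rw [Submodule.mem_span_pair]
    refine ⟨B w y / B x y, B x w / B x y, ?_⟩
    rw [← sub_eq_zero, ← neg_eq_zero]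
    rw [← h, hz]
    abel
  have hzx : B z x = 0 := by
    rw [hz]
    simp only [map_sub, map_smul, LinearMap.sub_apply, LinearMap.smul_apply, smul_eq_mul, hB x, hyx]
    rw [alt_swap hB w x]
    field_simp
    ring
  have hzy : B z y = 0 := by
    rw [hz]
    simp only [map_sub, map_smul, LinearMap.sub_apply, LinearMap.smul_apply, smul_eq_mul, hB y]
    field_simp
    ring
  have hli : LinearIndependent F ![x, y, z] := by
    rw [Fintype.linearIndependent_iff]
    intro c hc
    rw [Fin.sum_univ_three] at hc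
    simp only [Matrix.cons_val_zero, Matrix.cons_val_one, Matrix.cons_val_two, Matrix.tail_cons, Matrix.head_cons,
      Matrix.cons_val] at hc
    have h1 : c 0 = 0 := by
      have := congrArg (fun v => B v y) hc
      simp only [map_add, map_smul, LinearMap.add_apply, LinearMap.smul_apply, smul_eq_mul, hB y, hzy, map_zero,
        LinearMap.zero_apply, mul_zero, add_zero] at this
      exact (mul_eq_zero.1 this).resolve_right hxy
    have h2 : c 1 = 0 := by
      have := congrArg (fun v => B v x) hc
      simp only [map_add, map_smul, LinearMap.add_apply, LinearMap.smul_apply, smul_eq_mul, hB x, hzx, map_zero,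
        LinearMap.zero_apply, mul_zero, add_zero, zero_add, hyx] at this
      exact (mul_eq_zero.1 this).resolve_right (neg_ne_zero.2 hxy)
    have h3 : c 2 = 0 := by
      rw [h1, h2, zero_smul, zero_smul, zero_add, zero_add] at hc
      exact (smul_eq_zero.1 hc).resolve_right hz0
    intro i
    fin_cases i
    · exact h1
    · exact h2
    · exact h3
  have hle : Submodule.span F (Set.range ![x, y, z]) ≤ W := by
    rw [Submodule.span_le]
    rintro _ ⟨i, rfl⟩
    fin_cases i
    · exact hx
    · exact hy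
    · exact hzW
  have heq : Submodule.span F (Set.range ![x, y, z]) = W := by
    apply Submodule.eq_of_le_of_finrank_le hle
    rw [finrank_span_eq_card hli, Fintype.card_fin]
    exact hW
  apply hz0
  apply hn z hzW
  intro v hv
  rw [← heq] at hv
  refine Submodule.span_induction (p := fun v _ => B z v = 0) ?_ ?_ ?_ ?_ hv
  · rintro _ ⟨i, rfl⟩
    fin_cases i
    · exact hzx
    · exact hzy
    · exact hB z
  · rw [map_zero]
  · intro a b _ _ ha hb
    rw [map_add, ha, hb, add_zero]
  · intro c a _ ha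
    rw [map_smul, ha, smul_zero]

/-- `g` leaves a nondegenerate plane invariant -/
def Nd (B : V →ₗ[F] V →ₗ[F] F) (g : End F V) : Prop :=
  ∃ x y, B x y ≠ 0 ∧ g x ∈ Submodule.span F {x, y} ∧ g y ∈ Submodule.span F {x, y}

theorem nd_of_invariant [FiniteDimensional F V] (hdim : finrank F V ≤ 6) (hB : Symp B) {g g' : End F V} (hg : Isom B g g')
    (U : Submodule F V) (hU : ∀ x ∈ U, (∀ y ∈ U, B x y = 0) → x = 0) (h0 : U ≠ ⊥) (h1 : U ≠ ⊤)
    (hgU : ∀ x ∈ U, g x ∈ U) (hgU' : ∀ x ∈ U, g' x ∈ U) : Nd B g := by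
  let b : LinearMap.BilinForm F V := B
  have hrefl : b.IsRefl := by
    intro x y h
    change B y x = 0
    rw [alt_swap hB.self]
    change B x y = 0 at h
    rw [h, neg_zero]
  have hnd : (b.restrict U).Nondegenerate := by
    rw [LinearMap.BilinForm.Nondegenerate]
    have hr : (b.restrict U).IsRefl := fun x y h => hrefl x y h
    refine (LinearMap.IsRefl.nondegenerate_iff_separatingLeft hr).2 ?_
    intro x hx
    apply Subtype.ext
    exact hU x x.2 fun y hy => hx ⟨y, hy⟩
  have hc := LinearMap.BilinForm.isCompl_orthogonal_of_restrict_nondegenerate hrefl hnd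
  set W := LinearMap.BilinForm.orthogonal b U with hW
  have hWmem : ∀ w, w ∈ W ↔ ∀ u ∈ U, B u w = 0 := fun w => Iff.rfl
  have hsum := Submodule.finrank_add_eq_of_isCompl hc
  have hWn : ∀ x ∈ W, (∀ y ∈ W, B x y = 0) → x = 0 := by
    intro x hx hxW
    apply hB.nd
    intro v
    have hv : v ∈ U ⊔ W := by rw [hc.sup_eq_top]; trivial
    obtain ⟨u, hu, w, hw, rfl⟩ := Submodule.mem_sup.1 hv
    rw [map_add, hxW w hw, add_zero, alt_swap hB.self, hx u hu, neg_zero]
  have hW0 : W ≠ ⊥ := by
    intro h
    apply h1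
    have := hc.sup_eq_top
    rwa [h, sup_bot_eq] at this
  have key : ∀ W : Submodule F V, finrank F W ≤ 3 → W ≠ ⊥ → (∀ x ∈ W, (∀ y ∈ W, B x y = 0) → x = 0) →
      (∀ x ∈ W, g x ∈ W) → Nd B g := by
    intro W hd h0 hn hgW
    obtain ⟨x, hx, y, hy, hxy, hle⟩ := dim_two hB.self W hd h0 hn
    exact ⟨x, y, hxy, hle (hgW x hx), hle (hgW y hy)⟩
  rcases Nat.lt_or_ge 3 (finrank F U) with h | h
  · apply key W (by omega) hW0 hWn
    intro x hx u hu
    change B u (g x) = 0
    rw [← hg.adj']
    exact hx _ (hgU' u hu)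
  · exact key U h h0 hU hgU

end gen

end Cfsg.Agent.Cov44
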