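import Cfsg.Agent.Cov44.Sp6A
import Cfsg.Agent.Cov44.Root
import Cfsg.Agent.Ore44.Cyc

/-!
Self-adjoint operators on symplectic spaces whose minimal polynomial is a prime power.
-/

set_option autoImplicit false

namespace Cfsg.Agent.Cov44

open Polynomial Module Cfsg.Agent.Ore44

section gen

variable {F : Type*} [Field F] {V : Type*} [AddCommGroup V] [Module F V]

theorem bez {f q : F[X]} {k : ℕ} (hf : Irreducible f) (h : ¬ f ^ (k + 1) ∣ q) : ∃ a b : F[X], f ^ k = a * q + b * f ^ (k + 1) := by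
  classical
  have h1 : EuclideanDomain.gcd q (f ^ (k + 1)) ∣ f ^ (k + 1) := EuclideanDomain.gcd_dvd_right _ _
  obtain ⟨i, hi, hass⟩ := (dvd_prime_pow hf.prime _).1 h1
  have hik : i ≤ k := by
    by_contra hc
    have : i = k + 1 := by omega
    subst this
    exact h (hass.symm.dvd.trans (EuclideanDomain.gcd_dvd_left _ _))
  obtain ⟨c, hc⟩ : EuclideanDomain.gcd q (f ^ (k + 1)) ∣ f ^ k := hass.dvd.trans (pow_dvd_pow f hik)
  have h2 := EuclideanDomain.gcd_eq_gcd_ab q (f ^ (k + 1))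
  refine ⟨EuclideanDomain.gcdA q (f ^ (k + 1)) * c, EuclideanDomain.gcdB q (f ^ (k + 1)) * c, ?_⟩
  rw [hc, h2]
  ring

theorem pol_min {S : End F V} {f q : F[X]} {k : ℕ} (hf : Irreducible f) (hS : aeval S (f ^ (k + 1)) = 0)
    (hk : aeval S (f ^ k) ≠ 0) (hq : aeval S q = 0) : f ^ (k + 1) ∣ q := by
  by_contra h
  obtain ⟨a, b, hab⟩ := bez hf h
  apply hk
  rw [hab, map_add, map_mul, map_mul, hS, hq, mul_zero, mul_zero, add_zero]

variable {B : V →ₗ[F] V →ₗ[F] F}

theorem pol_nd {S : End F V} {f q : F[X]} {k : ℕ} (hf : Irreducible f) (hS : aeval S (f ^ (k + 1)) = 0) {x y : V}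
    (hxy : B x (aeval S (f ^ k) y) ≠ 0) (hq : ∀ r : F[X], B x (aeval S (r * q) y) = 0) : f ^ (k + 1) ∣ q := by
  by_contra h
  obtain ⟨a, b, hab⟩ := bez hf h
  apply hxy
  rw [hab, map_add, map_mul (aeval S) b, hS, mul_zero, add_zero]
  exact hq a

/-- the map `(p, q) ↦ p(S) x + q(S) y` -/
noncomputable def Phi (S : End F V) (x y : V) : F[X] × F[X] →ₗ[F] V := (kry S x).coprod (kry S y)

theorem Phi_apply (S : End F V) (x y : V) (p q : F[X]) : Phi S x y (p, q) = aeval S p x + aeval S q y := rfl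

theorem sa_pol (h2 : (2 : F) ≠ 0) (hB : Symp B) {S : End F V} (hS : Adj B S S) (p q : F[X]) (x : V) :
    B (aeval S p x) (aeval S q x) = 0 := by
  rw [← hS.aeval q, ← Module.End.mul_apply, ← map_mul]
  exact sa_self h2 hB.self (hS.aeval _) x

theorem Phi_left (h2 : (2 : F) ≠ 0) (hB : Symp B) {S : End F V} (hS : Adj B S S) (x y : V) (p q r : F[X]) :
    B (aeval S r x) (Phi S x y (p, q)) = B x (aeval S (r * q) y) := by
  rw [Phi_apply, map_add, sa_pol h2 hB hS, zero_add, hS.aeval r, ← Module.End.mul_apply, ← map_mul]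

theorem Phi_right (h2 : (2 : F) ≠ 0) (hB : Symp B) {S : End F V} (hS : Adj B S S) (x y : V) (p q r : F[X]) :
    B (Phi S x y (p, q)) (aeval S r y) = B x (aeval S (r * p) y) := by
  rw [Phi_apply, map_add, LinearMap.add_apply, sa_pol h2 hB hS, add_zero, hS.aeval p, ← Module.End.mul_apply, ← map_mul,
    mul_comm]

theorem Phi_nd (h2 : (2 : F) ≠ 0) (hB : Symp B) {S : End F V} (hS : Adj B S S) {f : F[X]} {k : ℕ} (hf : Irreducible f)
    (hSk : aeval S (f ^ (k + 1)) = 0) {x y : V} (hxy : B x (aeval S (f ^ k) y) ≠ 0) {p q : F[X]}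
    (h : ∀ v ∈ LinearMap.range (Phi S x y), B (Phi S x y (p, q)) v = 0) : f ^ (k + 1) ∣ p ∧ f ^ (k + 1) ∣ q := by
  constructor
  · apply pol_nd hf hSk hxy
    intro r
    rw [← Phi_right h2 hB hS x y p q]
    exact h _ ⟨(0, r), by rw [Phi_apply, map_zero, LinearMap.zero_apply, zero_add]⟩
  · apply pol_nd hf hSk hxy
    intro r
    rw [← Phi_left h2 hB hS x y p q, alt_swap hB.self]
    rw [h _ ⟨(r, 0), by rw [Phi_apply, map_zero, LinearMap.zero_apply, add_zero]⟩, neg_zero]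

theorem Phi_zero {S : End F V} {f : F[X]} {k : ℕ} (hSk : aeval S (f ^ (k + 1)) = 0) (x y : V) {p q : F[X]}
    (hp : f ^ (k + 1) ∣ p) (hq : f ^ (k + 1) ∣ q) : Phi S x y (p, q) = 0 := by
  obtain ⟨p, rfl⟩ := hp
  obtain ⟨q, rfl⟩ := hq
  rw [Phi_apply, map_mul, map_mul, hSk, zero_mul, zero_mul, LinearMap.zero_apply, LinearMap.zero_apply, add_zero]

theorem Phi_ker (h2 : (2 : F) ≠ 0) (hB : Symp B) {S : End F V} (hS : Adj B S S) {f : F[X]} {k : ℕ} (hf : Irreducible f)
    (hSk : aeval S (f ^ (k + 1)) = 0) {x y : V} (hxy : B x (aeval S (f ^ k) y) ≠ 0) (p q : F[X]) :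
    Phi S x y (p, q) = 0 ↔ f ^ (k + 1) ∣ p ∧ f ^ (k + 1) ∣ q := by
  constructor
  · intro h
    refine Phi_nd h2 hB hS hf hSk hxy fun v _ => ?_
    rw [h, map_zero, LinearMap.zero_apply]
  · rintro ⟨hp, hq⟩
    exact Phi_zero hSk x y hp hq

theorem Phi_rad (h2 : (2 : F) ≠ 0) (hB : Symp B) {S : End F V} (hS : Adj B S S) {f : F[X]} {k : ℕ} (hf : Irreducible f)
    (hSk : aeval S (f ^ (k + 1)) = 0) {x y : V} (hxy : B x (aeval S (f ^ k) y) ≠ 0) :
    ∀ u ∈ LinearMap.range (Phi S x y), (∀ v ∈ LinearMap.range (Phi S x y), B u v = 0) → u = 0 := by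
  rintro _ ⟨⟨p, q⟩, rfl⟩ h
  obtain ⟨h1, h3⟩ := Phi_nd h2 hB hS hf hSk hxy h
  exact Phi_zero hSk x y h1 h3

theorem Phi_finrank (h2 : (2 : F) ≠ 0) (hB : Symp B) {S : End F V} (hS : Adj B S S) {f : F[X]} {k : ℕ}
    (hf : Irreducible f) (hfm : f.Monic)
    (hSk : aeval S (f ^ (k + 1)) = 0) {x y : V} (hxy : B x (aeval S (f ^ k) y) ≠ 0) :
    finrank F (LinearMap.range (Phi S x y)) = 2 * ((k + 1) * f.natDegree) := by
  set m := f ^ (k + 1) with hm
  have hmm : m.Monic := hfm.pow _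
  have hmd : m.natDegree = (k + 1) * f.natDegree := by rw [hm, hfm.natDegree_pow]
  let ι := LinearMap.prodMap (degreeLT F m.natDegree).subtype (degreeLT F m.natDegree).subtype
  have hrange : LinearMap.range (Phi S x y) = LinearMap.range ((Phi S x y) ∘ₗ ι) := by
    apply le_antisymm
    · rintro _ ⟨⟨p, q⟩, rfl⟩
      refine ⟨(⟨p %ₘ m, ?_⟩, ⟨q %ₘ m, ?_⟩), ?_⟩
      · rw [mem_degreeLT]
        exact (degree_modByMonic_lt p hmm).trans_le degree_le_natDegree
      · rw [mem_degreeLT]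
        exact (degree_modByMonic_lt q hmm).trans_le degree_le_natDegree
      · change Phi S x y (p %ₘ m, q %ₘ m) = _
        rw [← sub_eq_zero, ← map_sub]
        change Phi S x y (p %ₘ m - p, q %ₘ m - q) = 0
        apply Phi_zero hSk
        · rw [← hm, modByMonic_eq_sub_mul_div p m, sub_sub_cancel_left]
          exact (dvd_mul_right _ _).neg_right
        · rw [← hm, modByMonic_eq_sub_mul_div q m, sub_sub_cancel_left]
          exact (dvd_mul_right _ _).neg_right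
    · rintro _ ⟨z, rfl⟩
      exact ⟨_, rfl⟩
  have hinj : Function.Injective ((Phi S x y) ∘ₗ ι) := by
    rw [injective_iff_map_eq_zero]
    rintro ⟨⟨p, hp⟩, ⟨q, hq⟩⟩ h
    change Phi S x y (p, q) = 0 at h
    obtain ⟨h3, h4⟩ := (Phi_ker h2 hB hS hf hSk hxy p q).1 h
    rw [mem_degreeLT] at hp hq
    have h5 : ∀ p : F[X], p.degree < m.natDegree → m ∣ p → p = 0 := by
      intro p hp hd
      apply Polynomial.eq_zero_of_dvd_of_degree_lt hd
      rwa [degree_eq_natDegree hmm.ne_zero]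
    have h6 := h5 p hp h3
    have h7 := h5 q hq h4
    subst h6 h7
    rfl
  rw [hrange, LinearMap.finrank_range_of_inj hinj, Module.finrank_prod,
    LinearEquiv.finrank_eq (degreeLTEquiv F m.natDegree), finrank_fintype_fun_eq_card, Fintype.card_fin, hmd]
  ring

end gen

end Cfsg.Agent.Cov44
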