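import Cfsg.Agent.Cov44.Sp6B

/-!
Self-adjoint operators `e` with `e ^ 3 = e + c` and `e g = g e + g`, in characteristic three.
-/

set_option autoImplicit false

namespace Cfsg.Agent.Cov44

open Polynomial Module Cfsg.Agent.Ore44

theorem ring_cube {R : Type*} [Ring R] (h3 : (3 : R) = 0) {e T D b : R} (h1 : e * T = T * e + D)
    (h2 : e * D = D * e + (T + b)) (hD : D * T = T * D) : (e + T) ^ 3 = e ^ 3 + T ^ 3 + (T + b) := by
  have a1 : e * (e * T) = T * e * e + D * e + D * e + (T + b) := by
    rw [h1, mul_add, ← mul_assoc, h1, h2]; noncomm_ring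
  have a2 : (e * T) * e = T * e * e + D * e := by rw [h1]; noncomm_ring
  have a3 : (e * T) * T = T * T * e + T * D + T * D := by
    rw [h1, add_mul, mul_assoc, h1, hD]; noncomm_ring
  have a4 : T * (e * T) = T * T * e + T * D := by rw [h1]; noncomm_ring
  have a5 : (e + T) ^ 3 = e ^ 3 + T ^ 3 + (e * (e * T) + (e * T) * e + T * e * e) + ((e * T) * T + T * (e * T) + T * T * e) := by
    noncomm_ring
  rw [a5, a1, a2, a3, a4]
  have a6 : e ^ 3 + T ^ 3 + (T * e * e + D * e + D * e + (T + b) + (T * e * e + D * e) + T * e * e) +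
      (T * T * e + T * D + T * D + (T * T * e + T * D) + T * T * e) =
      e ^ 3 + T ^ 3 + (T + b) + 3 * (T * e * e + D * e + T * T * e + T * D) := by
    noncomm_ring
  rw [a6, h3, zero_mul, add_zero]

theorem ring_comm {R : Type*} [Ring R] (h3 : (3 : R) = 0) {e g : R} (h : e * g = g * e + g) :
    (e ^ 3 - e) * g = g * (e ^ 3 - e) := by
  have h1 : e * g = g * (e + 1) := by rw [h, mul_add, mul_one]
  have h2 : e ^ 3 * g = g * (e + 1) ^ 3 := by
    have : e ^ 3 * g = e * (e * (e * g)) := by noncomm_ring
    rw [this, h1, ← mul_assoc e g, h1, mul_assoc, ← mul_assoc e g, h1]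
    noncomm_ring
  have h4 : (e + 1) ^ 3 = e ^ 3 + 1 + 3 * (e ^ 2 + e) := by noncomm_ring
  rw [sub_mul, h2, h1, h4, h3, zero_mul, add_zero]
  noncomm_ring

theorem ring_inv {R : Type*} [Ring R] {e g g' : R} (hm : g * g' = 1) (hm' : g' * g = 1) (h : e * g = g * e + g) :
    e * g' = g' * e - g' := by
  have h1 : g' * (e * g) * g' = g' * (g * e + g) * g' := by rw [h]
  have h2 : g' * (e * g) * g' = g' * e := by rw [mul_assoc, mul_assoc, hm, mul_one]
  have h3 : g' * (g * e + g) * g' = e * g' + g' := by
    rw [mul_add, ← mul_assoc, hm', one_mul, add_mul, one_mul]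
  rw [h2, h3] at h1
  rw [h1]
  abel

section gen

variable {F : Type*} [Field F] {V : Type*} [AddCommGroup V] [Module F V] {B : V →ₗ[F] V →ₗ[F] F}

/-- the second kind of elements -/
def Ee (B : V →ₗ[F] V →ₗ[F] F) (c : F) (g : End F V) : Prop :=
  ∃ e : End F V, Adj B e e ∧ e ^ 3 = e + c • 1 ∧ (e * g = g * e ∨ e * g = g * e + g)

theorem three_end [CharP F 3] : (3 : End F V) = 0 := by
  have h : (3 : F) = 0 := by exact_mod_cast CharP.cast_eq_zero F 3
  have h1 : (3 : End F V) = algebraMap F (End F V) 3 := by rw [map_ofNat]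
  rw [h1, h, map_zero]

theorem two_ne [CharP F 3] : (2 : F) ≠ 0 := by
  intro h
  have h3 : (3 : F) = 0 := by exact_mod_cast CharP.cast_eq_zero F 3
  have : (1 : F) = 0 := by linear_combination h3 - h
  exact one_ne_zero this

theorem exists_cbrt [Finite F] [CharP F 3] (a : F) : ∃ b : F, b ^ 3 = a := by
  haveI : Fact (Nat.Prime 3) := ⟨Nat.prime_three⟩
  have hinj : Function.Injective (frobenius F 3) := frobenius_inj F 3
  have hs : Function.Surjective (frobenius F 3) := Finite.surjective_of_injective hinj
  obtain ⟨b, hb⟩ := hs a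
  exact ⟨b, by rw [← hb, frobenius_def]⟩

theorem isom_comm {g g' : End F V} (hg : Isom B g g') : (g + g') * (g - g') = (g - g') * (g + g') := by
  have h1 := hg.mul
  have h2 := hg.mul'
  rw [add_mul, mul_sub, mul_sub, sub_mul, mul_add, mul_add, h1, h2]
  abel

theorem isom_sq {g g' : End F V} (hg : Isom B g g') : (g - g') * (g - g') = (g + g') * (g + g') - 4 := by
  have h1 := hg.mul
  have h2 := hg.mul'
  rw [mul_sub, sub_mul, sub_mul, mul_add, add_mul, add_mul, h1, h2]
  have : (4 : End F V) = 1 + 1 + 1 + 1 := by norm_num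
  rw [this]
  abel

theorem isom_sa {g g' : End F V} (hg : Isom B g g') : Adj B (g + g') (g + g') := by
  have := hg.adj.add hg.adj'
  rwa [add_comm g' g] at this

theorem isom_Sg {g g' : End F V} (hg : Isom B g g') : (g + g') * g = g * (g + g') := by
  rw [add_mul, mul_add, hg.mul, hg.mul']

theorem ee_of [Finite F] [CharP F 3] {g g' e : End F V} (hg : Isom B g g') (he : Adj B e e) (heg : e * g = g * e + g) {α s : F}
    (hα : e ^ 3 = e + α • 1) (hS : (g + g') ^ 3 = s ^ 3 • 1) (c : F) : Ee B c g := by
  have heg' := ring_inv hg.mul hg.mul' heg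
  have h3 : (3 : F) = 0 := by exact_mod_cast CharP.cast_eq_zero F 3
  have e1 : e * (g + g') = (g + g') * e + (g - g') := by
    rw [mul_add, heg, heg', add_mul]; abel
  have e2 : e * (g - g') = (g - g') * e + (g + g') := by
    rw [mul_sub, heg, heg', sub_mul]; abel
  have e3 := isom_comm hg
  have e4 := isom_sq hg
  have e5 := isom_Sg hg
  have e6 := isom_sa hg
  set S := g + g' with hSdef
  set D := g - g' with hD
  by_cases hs : s = 0
  · set β := c - α with hβ
    have t1 : e * (β • S ^ 2) = (β • S ^ 2) * e + β • (2 • (S * D)) := by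
      rw [mul_smul_comm, smul_mul_assoc, ← smul_add]
      congr 1
      have : e * S ^ 2 = (e * S) * S := by rw [pow_two, mul_assoc]
      rw [this, e1, add_mul, mul_assoc, e1, ← e3]
      noncomm_ring
    have t2 : e * (S * D) = (S * D) * e + 2 • S ^ 2 - 4 := by
      rw [← mul_assoc, e1, add_mul, mul_assoc, e2, e4]
      noncomm_ring
    have t3 : e * (β • (2 • (S * D))) = (β • (2 • (S * D))) * e + (β • S ^ 2 + β • 1) := by
      rw [mul_smul_comm, smul_mul_assoc, ← smul_add, ← smul_add]
      congr 1
      rw [mul_smul_comm, t2]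
      have h30 : (3 : End F V) = 0 := three_end
      have : (2 • (S * D * e + 2 • S ^ 2 - 4) : End F V) = 2 • (S * D) * e + (S ^ 2 + 1) + 3 * (S ^ 2 - 3) := by
        have h8 : (2 : ℕ) • (4 : End F V) = 3 * 3 - 1 := by norm_num
        rw [smul_sub, h8]
        noncomm_ring
      rw [this, h30, zero_mul, add_zero]
    have t4 : (β • (2 • (S * D))) * (β • S ^ 2) = (β • S ^ 2) * (β • (2 • (S * D))) := by
      rw [smul_mul_smul_comm, smul_mul_smul_comm]
      congr 1
      rw [smul_mul_assoc, mul_smul_comm]
      congr 1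
      have : D * S ^ 2 = S ^ 2 * D := by
        rw [pow_two, ← mul_assoc, ← e3, mul_assoc, ← e3, mul_assoc]
      rw [mul_assoc, this, ← mul_assoc, ← mul_assoc, ← pow_succ', ← pow_succ]
    refine ⟨e + β • S ^ 2, ?_, ?_, Or.inr ?_⟩
    · apply he.add
      apply Adj.smul
      rw [pow_two]
      exact e6.mul e6
    · rw [ring_cube three_end t1 t3 t4, hα]
      have h6 : (β • S ^ 2) ^ 3 = 0 := by
        rw [_root_.smul_pow, ← pow_mul, mul_comm, pow_mul, hS, hs]
        rw [zero_pow (by norm_num), zero_smul, zero_pow (by norm_num), smul_zero]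
      rw [h6, hβ]
      rw [add_zero, sub_smul c α (1 : End F V)]
      abel
    · rw [add_mul, mul_add, heg, smul_mul_assoc, mul_smul_comm]
      have : S ^ 2 * g = g * S ^ 2 := by
        rw [pow_two, mul_assoc, e5, ← mul_assoc, e5, mul_assoc]
      rw [this]
      abel
  · obtain ⟨β, hβ⟩ := exists_cbrt ((c - α) / s ^ 3)
    have t1 : e * (β • S) = (β • S) * e + β • D := by
      rw [mul_smul_comm, smul_mul_assoc, ← smul_add, e1]
    have t3 : e * (β • D) = (β • D) * e + (β • S + 0) := by
      rw [mul_smul_comm, smul_mul_assoc, add_zero, ← smul_add, e2]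
    have t4 : (β • D) * (β • S) = (β • S) * (β • D) := by
      rw [smul_mul_smul_comm, smul_mul_smul_comm, e3]
    refine ⟨e + β • S, he.add (e6.smul β), ?_, Or.inr ?_⟩
    · rw [ring_cube three_end t1 t3 t4, hα, _root_.smul_pow, hS, hβ, smul_smul, div_mul_cancel₀ _ (pow_ne_zero 3 hs),
        sub_smul c α (1 : End F V)]
      abel
    · rw [add_mul, mul_add, heg, smul_mul_assoc, mul_smul_comm, e5]
      abel

theorem comm_pol {e g : End F V} (h : e * g = g * e + g) (p : F[X]) :
    e * aeval g p = aeval g p * e + aeval g (X * derivative p) := by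
  induction p using Polynomial.induction_on with
  | C a =>
    rw [derivative_C, mul_zero, map_zero, add_zero, aeval_C]
    exact (Algebra.commutes a e).symm
  | add p q hp hq => rw [map_add, mul_add, hp, hq, map_add, mul_add, map_add, add_mul]; abel
  | monomial n a hn =>
    have hdm : derivative (C a * X ^ n * X) = derivative (C a * X ^ n) * X + C a * X ^ n := by
      rw [derivative_mul, derivative_X, mul_one]
    rw [pow_succ, ← mul_assoc, map_mul (aeval g) (C a * X ^ n) X, aeval_X, ← mul_assoc, hn, add_mul, mul_assoc _ e g, h, hdm]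
    have h1 : X * (derivative (C a * X ^ n) * X + C a * X ^ n) = (X * derivative (C a * X ^ n)) * X + (C a * X ^ n) * X := by ring
    rw [h1, map_add, map_mul (aeval g) _ X, map_mul (aeval g) _ X, aeval_X]
    noncomm_ring

set_option maxHeartbeats 400000 in
/-- the cyclic case -/
theorem cyc_e [FiniteDimensional F V] [CharP F 3] (hB : Symp B) {g g' : End F V} (hg : Isom B g g') {s : F} (hdim : finrank F V = 6)
    (hS : (g + g') ^ 3 = s ^ 3 • 1) {x : V} (hx : Cyc g x) :
    ∃ e : End F V, Adj B e e ∧ e * g = g * e + g ∧ ∃ α : F, e ^ 3 = e + α • 1 := by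
  have h3 : (3 : F) = 0 := by exact_mod_cast CharP.cast_eq_zero F 3
  have hgg' : Commute g g' := by rw [Commute, SemiconjBy, hg.mul, hg.mul']
  set χ : F[X] := X ^ 6 - C (s ^ 3) * X ^ 3 + 1 with hχ
  have hχm : χ.Monic := by rw [hχ]; monicity!
  have hχd : χ.natDegree = 6 := by rw [hχ]; compute_degree!
  have hcube : g ^ 3 + g' ^ 3 = s ^ 3 • 1 := by
    rw [← hS, hgg'.add_pow']
    have h30 : (3 : End F V) = 0 := three_end
    have : ∀ T : End F V, 3 • T = 0 := by
      intro T
      have : (3 : ℕ) • T = (3 : End F V) * T := by rw [nsmul_eq_mul]; rfl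
      rw [this, h30, zero_mul]
    rw [Finset.Nat.sum_antidiagonal_succ, Finset.Nat.sum_antidiagonal_succ, Finset.Nat.sum_antidiagonal_succ]
    simp [Nat.choose, this]
    rw [add_comm]
  have h33 : g ^ 3 * g' ^ 3 = 1 := by rw [← hgg'.mul_pow, hg.mul, one_pow]
  have haχ : aeval g χ = 0 := by
    rw [hχ, map_add, map_sub, map_mul, aeval_X_pow, aeval_X_pow, aeval_C, map_one, Algebra.algebraMap_eq_smul_one, ← hcube, add_mul,
      ← (hgg'.pow_pow 3 3).eq, h33, ← pow_add]
    abel
  have hcp : g.charpoly = χ := hx.charpoly_eq hχm (by rw [hχd, hdim]) (by rw [haχ]; rfl)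
  have hker : ∀ p : F[X], aeval g p x = 0 ↔ χ ∣ p := fun p => by rw [← hcp]; exact hx.ker p
  have hker' : ∀ p : F[X], aeval g p = 0 → χ ∣ p := fun p hp => (hker p).1 (by rw [hp]; rfl)
  have hdχ : derivative χ = 0 := by
    rw [hχ]
    simp only [derivative_add, derivative_sub, derivative_mul, derivative_X_pow, derivative_C, derivative_one, zero_mul, zero_add,
      add_zero, Nat.cast_ofNat]
    have h6 : (6 : F) = 0 := by linear_combination 2 * h3
    rw [h6, h3, map_zero]
    ring
  -- the operator `D`
  obtain ⟨r, hr⟩ := (kry g x).exists_rightInverse_of_surjective (LinearMap.range_eq_top.2 hx.surj)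
  let D : End F V := (kry g x) ∘ₗ (LinearMap.mulLeft F (X : F[X])) ∘ₗ (derivative (R := F)) ∘ₗ r
  have hD : ∀ p : F[X], D (aeval g p x) = aeval g (X * derivative p) x := by
    intro p
    change aeval g (X * derivative (r (aeval g p x))) x = _
    have h1 : aeval g (r (aeval g p x) - p) x = 0 := by
      rw [map_sub, LinearMap.sub_apply, sub_eq_zero]
      exact LinearMap.congr_fun hr _
    obtain ⟨u, hu⟩ := (hker _).1 h1
    have h4 : r (aeval g p x) = p + χ * u := by rw [← hu]; ring
    rw [h4, derivative_add, derivative_mul, hdχ, zero_mul, zero_add]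
    have h5 : X * (derivative p + χ * derivative u) = X * derivative p + χ * (X * derivative u) := by ring
    rw [h5, map_add, map_mul (aeval g) χ, haχ, zero_mul, add_zero]
  have hDg : D * g = g * D + g := by
    apply LinearMap.ext
    intro v
    obtain ⟨p, rfl⟩ := hx.surj v
    change D (g (aeval g p x)) = g (D (aeval g p x)) + g (aeval g p x)
    have h1 : g (aeval g p x) = aeval g (X * p) x := by rw [map_mul, aeval_X]; rfl
    rw [h1, hD, hD, derivative_mul, derivative_X, one_mul]
    have h4 : X * (p + X * derivative p) = X * (X * derivative p) + X * p := by ring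
    rw [h4, map_add, map_mul (aeval g) X (X * derivative p), aeval_X]
    rfl
  obtain ⟨D', hD1, hD2⟩ := exists_adj hB D
  have hDg' := ring_inv hg.mul hg.mul' hDg
  have hD'g : D' * g = g * D' + g := by
    -- adjoint of `g' D = D g' + g'`
    have h1 : Adj B (g' * D) (D' * g) := hg.adj'.mul hD1
    have h4 : g' * D = D * g' + g' := by rw [hDg']; abel
    rw [h4] at h1
    have h5 : Adj B (D * g' + g') (g * D' + g) := (hD1.mul hg.adj').add hg.adj'
    exact h1.unique hB h5
  set e : End F V := -(D + D') with he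
  have hea : Adj B e e := by
    have := (hD1.add hD2).neg
    rwa [add_comm D' D] at this
  have heg : e * g = g * e + g := by
    rw [he, neg_mul, add_mul, hDg, hD'g]
    have h30 : (3 : End F V) = 0 := three_end
    have : -(g * D + g + (g * D' + g)) = g * -(D + D') + g - 3 * g := by noncomm_ring
    rw [this, h30, zero_mul, sub_zero]
  refine ⟨e, hea, heg, ?_⟩
  have hz := ring_comm three_end heg
  set z := e ^ 3 - e with hzdef
  obtain ⟨p0, hp0⟩ := hx.surj (z x)
  set p := p0 %ₘ χ with hp
  have hzp : z = aeval g p := by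
    have h1 : aeval g p = aeval g p0 := by
      conv_rhs => rw [← modByMonic_add_div p0 χ]
      rw [map_add, map_mul, haχ, zero_mul, add_zero]
    rw [h1]
    apply LinearMap.ext
    intro v
    obtain ⟨q, rfl⟩ := hx.surj v
    change z (aeval g q x) = aeval g p0 (aeval g q x)
    have h4 : z * aeval g q = aeval g q * z := by
      induction q using Polynomial.induction_on with
      | C a => rw [aeval_C]; exact (Algebra.commutes a z).symm
      | add p q hp hq => rw [map_add, mul_add, hp, hq, add_mul]
      | monomial n a hn =>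
        rw [pow_succ, ← mul_assoc, map_mul (aeval g) (C a * X ^ n) X, aeval_X, ← mul_assoc, hn, mul_assoc, hz, mul_assoc]
    have h5 : z (aeval g q x) = aeval g q (z x) := LinearMap.congr_fun h4 x
    have h6 : aeval g p0 (aeval g q x) = aeval g q (aeval g p0 x) := by
      rw [← Module.End.mul_apply, ← map_mul, mul_comm, map_mul]
      rfl
    have h7 : aeval g p0 x = z x := hp0
    rw [h5, h6, h7]
  have hpd : p.natDegree < 6 := by
    rw [← hχd, hp]
    exact natDegree_modByMonic_lt p0 hχm (by intro h; rw [h] at hχd; simp at hχd)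
  have hez : e * z = z * e := by rw [hzdef]; noncomm_ring
  have hder : X * derivative p = 0 := by
    have h1 := comm_pol heg p
    rw [← hzp, hez] at h1
    have h4 : aeval g (X * derivative p) = 0 := by
      have := congrArg (fun T => T - z * e) h1
      simp only [sub_self, add_sub_cancel_left] at this
      exact this.symm
    apply Polynomial.eq_zero_of_dvd_of_natDegree_lt (hker' _ h4)
    rw [hχd]
    refine lt_of_le_of_lt ?_ hpd
    by_cases h0 : derivative p = 0
    · rw [h0, mul_zero, natDegree_zero]; exact Nat.zero_le _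
    · have h5 : p.natDegree ≠ 0 := fun h6 => h0 (by rw [Polynomial.eq_C_of_natDegree_eq_zero h6, derivative_C])
      rw [natDegree_X_mul h0]
      have := natDegree_derivative_lt h5
      omega
  have hco : ∀ k : ℕ, (k : F) ≠ 0 → p.coeff k = 0 := by
    intro k hk
    rcases Nat.eq_zero_or_pos k with h0 | h0
    · subst h0; exact absurd Nat.cast_zero hk
    · have h1 := congrArg (fun q => q.coeff k) hder
      simp only [coeff_zero] at h1
      obtain ⟨j, rfl⟩ : ∃ j, k = j + 1 := ⟨k - 1, by omega⟩
      rw [coeff_X_mul, coeff_derivative] at h1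
      refine (mul_eq_zero.1 h1).resolve_right ?_
      exact_mod_cast hk
  have hzz : z = p.coeff 0 • 1 + p.coeff 3 • g ^ 3 := by
    rw [hzp]
    have h1 : (1 : F) ≠ 0 := one_ne_zero
    have h22 : (2 : F) ≠ 0 := two_ne
    conv_lhs => rw [p.as_sum_range' 6 hpd]
    rw [map_sum]
    simp only [Finset.sum_range_succ, Finset.sum_range_zero, zero_add, aeval_monomial]
    rw [hco 1 (by rw [Nat.cast_one]; exact h1), hco 2 (by exact_mod_cast h22),
      hco 4 (by intro h; apply h1; push_cast at h; linear_combination h - h3),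
      hco 5 (by intro h; apply h22; push_cast at h; linear_combination h - h3)]
    simp only [map_zero, zero_mul, add_zero, pow_zero, mul_one, Algebra.algebraMap_eq_smul_one, smul_mul_assoc, one_mul]
  refine ⟨p.coeff 0, ?_⟩
  by_cases hp3 : p.coeff 3 = 0
  · rw [hp3, zero_smul, add_zero] at hzz
    rw [← hzz, hzdef]
    abel
  · exfalso
    have hza : Adj B z z := by
      have : Adj B (e ^ 3) (e ^ 3) := by
        have := (hea.mul hea).mul hea
        have h4 : e ^ 3 = e * e * e := by noncomm_ring
        rw [h4]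
        rwa [← mul_assoc] at this
      exact this.sub hea
    have hg3 : Adj B (g ^ 3) (g' ^ 3) := by
      have := (hg.adj.mul hg.adj).mul hg.adj
      have h4 : ∀ g : End F V, g ^ 3 = g * g * g := fun g => by noncomm_ring
      rw [h4, h4]
      rwa [← mul_assoc] at this
    have hza' : Adj B z (p.coeff 0 • 1 + p.coeff 3 • g' ^ 3) := by
      conv => arg 2; rw [hzz]
      exact (Adj.one.smul _).add (hg3.smul _)
    have h1 := hza.unique hB hza'
    rw [hzz] at h1
    have h4 : p.coeff 3 • g ^ 3 = p.coeff 3 • g' ^ 3 := add_left_cancel h1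
    have h5 : g ^ 3 = g' ^ 3 := smul_right_injective _ hp3 h4
    have h6 : aeval g (X ^ 6 - 1 : F[X]) = 0 := by
      rw [← h5, ← pow_add] at h33
      rw [map_sub, aeval_X_pow, map_one, sub_eq_zero]
      exact h33
    have h7 := hker' _ h6
    have h8 : χ ∣ C (s ^ 3) * X ^ 3 - C 2 := by
      have h9 := dvd_sub h7 (dvd_refl χ)
      have : (X ^ 6 - 1 : F[X]) - χ = C (s ^ 3) * X ^ 3 - C 2 := by
        rw [hχ]
        have : (C (2 : F) : F[X]) = 2 := rfl
        rw [this]
        ring
      rwa [this] at h9
    have h9 : C (s ^ 3) * X ^ 3 - C (2 : F) = 0 := by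
      apply Polynomial.eq_zero_of_dvd_of_natDegree_lt h8
      rw [hχd]
      refine lt_of_le_of_lt (b := 3) ?_ (by norm_num)
      compute_degree
    have h10 := congrArg (fun q => q.coeff 0) h9
    simp [coeff_C] at h10
    exact two_ne h10

end gen

end Cfsg.Agent.Cov44
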