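import Cfsg.Agent.Cov44.Sp6C

/-!
The elements of `Sp_6(3 ^ a)`: they leave a nondegenerate plane invariant or normalise a field of order `q ^ 3`.
-/

set_option autoImplicit false

namespace Cfsg.Agent.Cov44

open Polynomial Module Cfsg.Agent.Ore44

section gen

variable {F : Type*} [Field F] {V : Type*} [AddCommGroup V] [Module F V] {B : V →ₗ[F] V →ₗ[F] F}

theorem exists_rep [FiniteDimensional F V] (hB : Symp B) (φ : V →ₗ[F] F) : ∃ y, ∀ x, B x y = φ x := by
  have hinj : Function.Injective B := by
    rw [injective_iff_map_eq_zero]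
    intro x hx
    exact hB.nd x fun y => by rw [hx]; rfl
  obtain ⟨y, hy⟩ := (LinearMap.injective_iff_surjective_of_finrank_eq_finrank (Subspace.dual_finrank_eq).symm).1 hinj (-φ)
  refine ⟨y, fun x => ?_⟩
  rw [alt_swap hB.self, hy, LinearMap.neg_apply, neg_neg]

theorem complete [FiniteDimensional F V] (hB : Symp B) (hdim : finrank F V = 6) {w u : Fin 3 → V}
    (hww : ∀ i j, B (w i) (w j) = 0) (huu : ∀ i j, B (u i) (u j) = 0)
    (hwu : ∀ i j, B (w i) (u j) = if i = j then 1 else 0) (v : V) :
    v = ∑ i, (B v (u i) • w i + B (w i) v • u i) := by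
  have huw : ∀ i j, B (u i) (w j) = if i = j then -1 else 0 := by
    intro i j
    rw [alt_swap hB.self, hwu]
    by_cases h : i = j
    · rw [if_pos h, if_pos h.symm]
    · rw [if_neg h, if_neg (fun h' => h h'.symm), neg_zero]
  have hli : LinearIndependent F (Sum.elim w u) := by
    rw [Fintype.linearIndependent_iff]
    intro c hc
    rw [Fintype.sum_sum_type] at hc
    simp only [Sum.elim_inl, Sum.elim_inr] at hc
    rintro (i | i)
    · have h1 := congrArg (fun v => B v (u i)) hc
      simp only [map_add, map_sum, LinearMap.add_apply, LinearMap.sum_apply, map_smul, LinearMap.smul_apply, hwu, huu, smul_eq_mul,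
        mul_zero, Finset.sum_const_zero, add_zero, map_zero, LinearMap.zero_apply, mul_ite, mul_one, Finset.sum_ite_eq',
        Finset.mem_univ, if_true] at h1
      exact h1
    · have h1 := congrArg (fun v => B (w i) v) hc
      simp only [map_add, map_sum, map_smul, hwu, hww, smul_eq_mul,
        mul_zero, Finset.sum_const_zero, zero_add, map_zero, mul_ite, mul_one, Finset.sum_ite_eq,
        Finset.mem_univ, if_true] at h1
      exact h1
  have hspan : Submodule.span F (Set.range (Sum.elim w u)) = ⊤ :=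
    hli.span_eq_top_of_card_eq_finrank' (by rw [hdim, Fintype.card_sum, Fintype.card_fin])
  rw [← sub_eq_zero]
  apply hB.nd
  intro y
  have hy : y ∈ Submodule.span F (Set.range (Sum.elim w u)) := by rw [hspan]; trivial
  refine Submodule.span_induction (p := fun y _ => B (v - ∑ i, (B v (u i) • w i + B (w i) v • u i)) y = 0) ?_ ?_ ?_ ?_ hy
  · rintro _ ⟨(j | j), rfl⟩
    · simp only [Sum.elim_inl, map_sub, map_sum, map_add, map_smul, LinearMap.sub_apply, LinearMap.sum_apply, LinearMap.add_apply,
        LinearMap.smul_apply, hww, huw, smul_eq_mul, mul_zero, zero_add, mul_ite, mul_neg, mul_one, Finset.sum_ite_eq',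
        Finset.mem_univ, if_true]
      rw [alt_swap hB.self v]
      ring
    · simp only [Sum.elim_inr, map_sub, map_sum, map_add, map_smul, LinearMap.sub_apply, LinearMap.sum_apply, LinearMap.add_apply,
        LinearMap.smul_apply, huu, hwu, smul_eq_mul, mul_zero, add_zero, mul_ite, mul_one, Finset.sum_ite_eq',
        Finset.mem_univ, if_true]
      ring
  · rw [map_zero]
  · intro a b _ _ ha hb
    rw [map_add, ha, hb, add_zero]
  · intro c a _ ha
    rw [map_smul, ha, smul_zero]

/-- the unipotent elements of type `(3, 3)` -/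
theorem c2_e [FiniteDimensional F V] [CharP F 3] (hB : Symp B) (hdim : finrank F V = 6) {g g' : End F V} (hg : Isom B g g')
    {ε : F} (hε : ε ^ 2 = 1) {N : End F V} (hN : g + g' = N + (2 * ε) • 1) (hN0 : N ≠ 0) (hN2 : N * N = 0)
    (hND : N * (g - g') = 0) : ∃ e : End F V, Adj B e e ∧ e * g = g * e + g ∧ e ^ 3 = e := by
  have h3 : (3 : F) = 0 := by exact_mod_cast CharP.cast_eq_zero F 3
  have h2 : (2 : F) ≠ 0 := two_ne
  have hε0 : ε ≠ 0 := by rintro rfl; simp at hε
  have hNa : Adj B N N := by
    have h1 : N = (g + g') - (2 * ε) • 1 := by rw [hN]; abel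
    rw [h1]
    exact (isom_sa hg).sub (Adj.one.smul _)
  have hNg : N * g = ε • N := by
    have h1 : N * g = N * g' := by rwa [mul_sub, sub_eq_zero] at hND
    have h4 : N * (g + g') = (2 * ε) • N := by rw [hN, mul_add, hN2, zero_add, mul_smul_comm, mul_one]
    rw [mul_add, ← h1, ← two_smul F, mul_smul] at h4
    exact smul_right_injective _ h2 h4
  have hgN : g * N = ε • N := by
    rw [← hNg]
    have h1 := isom_Sg hg
    rw [hN, add_mul, mul_add, smul_mul_assoc, mul_smul_comm, one_mul, mul_one] at h1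
    exact (add_right_cancel h1).symm
  have hDD : (g - g') * (g - g') = ε • N := by
    rw [isom_sq hg, hN, add_mul, mul_add, hN2, zero_add, smul_mul_assoc, one_mul, mul_smul_comm, mul_one, smul_add, smul_smul]
    have h4 : (4 : End F V) = (4 : F) • 1 := by
      have : (4 : End F V) = algebraMap F (End F V) 4 := by rw [map_ofNat]
      rw [this, Algebra.algebraMap_eq_smul_one]
    rw [h4]
    have h5 : 2 * ε * (2 * ε) = 4 := by linear_combination 4 * hε
    rw [h5]
    have h6 : (2 * ε) • N + ((2 * ε) • N + (4 : F) • 1) - (4 : F) • 1 = (4 * ε) • N := by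
      rw [← add_assoc, add_sub_cancel_right, ← add_smul]; congr 1; ring
    rw [h6]
    congr 1
    linear_combination ε * h3
  -- pointwise
  have pN : ∀ v, N (g v) = ε • N v := fun v => LinearMap.congr_fun hNg v
  have pN' : ∀ v, g (N v) = ε • N v := fun v => LinearMap.congr_fun hgN v
  have pD : ∀ v, (g - g') ((g - g') v) = ε • N v := fun v => LinearMap.congr_fun hDD v
  have pS : ∀ v, g v + g' v = N v + (2 * ε) • v := fun v => LinearMap.congr_fun hN v
  have pgg' : ∀ v, g (g' v) = v := fun v => LinearMap.congr_fun hg.mul v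
  have pg'g : ∀ v, g' (g v) = v := fun v => LinearMap.congr_fun hg.mul' v
  have pND : ∀ v, N ((g - g') v) = 0 := fun v => LinearMap.congr_fun hND v
  have p2 : ∀ v, g (g v) = ε • N v + (2 * ε) • g v - v := by
    intro v
    have := pS (g v)
    rw [pg'g, pN] at this
    rw [← this]; abel
  have p3 : ∀ v, g (g (g v)) = ε • v := by
    intro v
    rw [p2 v, map_sub, map_add, map_smul, map_smul, pN', p2 v]
    have e1 : ε • ε • N v + (2 * ε) • (ε • N v + (2 * ε) • g v - v) - g v
        = (3 * ε ^ 2) • N v + (4 * ε ^ 2 - 1) • g v + (- 2 * ε) • v := by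
      module
    rw [e1, hε]
    have e2 : (3 : F) * 1 = 0 := by rw [h3, zero_mul]
    have e3 : (4 : F) * 1 - 1 = 0 := by linear_combination h3
    have e4 : - 2 * ε = ε := by linear_combination -ε * h3
    rw [e2, e3, e4, zero_smul, zero_smul, zero_add, zero_add]
  have pg' : ∀ v, g' v = ε • g (g v) := by
    intro v
    have h1 : g (g' v) = g (ε • g (g v)) := by
      rw [pgg', map_smul, p3, smul_smul, ← pow_two, hε, one_smul]
    have h4 := congrArg g' h1
    rwa [pg'g, pg'g] at h4
  have adj := hg.adj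
  have adj' := hg.adj'
  have hDa : ∀ x y, B ((g - g') x) y = - B x ((g - g') y) := by
    intro x y
    rw [LinearMap.sub_apply, LinearMap.sub_apply, map_sub, map_sub, LinearMap.sub_apply, adj, adj']
    ring
  have fix : ∀ x0 y0, B x0 (N y0) ≠ 0 → ∃ κ : F, B (x0 + κ • (g - g') y0) (g (x0 + κ • (g - g') y0)) = 0 := by
    intro x0 y0 h
    refine ⟨-(B x0 (g x0)) / (ε * B x0 (N y0)), ?_⟩
    set κ := -(B x0 (g x0)) / (ε * B x0 (N y0)) with hκ
    have hκ' : κ * (ε * B x0 (N y0)) = -(B x0 (g x0)) := by rw [hκ]; field_simp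
    have c1 : B x0 (g ((g - g') y0)) + B ((g - g') y0) (g x0) = ε * B x0 (N y0) := by
      rw [alt_swap hB.self ((g - g') y0), adj x0]
      rw [← sub_eq_add_neg, ← map_sub, ← smul_eq_mul, ← map_smul, ← pD y0]
      rfl
    have c2 : B ((g - g') y0) (g ((g - g') y0)) = 0 := by
      rw [hDa]
      have h1 : (g - g') (g ((g - g') y0)) = g ((g - g') ((g - g') y0)) := by
        rw [LinearMap.sub_apply g g' (g _), pg'g, LinearMap.sub_apply g g' ((g - g') y0), map_sub, pgg']
      rw [h1, pD, map_smul, pN', smul_smul, map_smul, ← hNa, sa_self h2 hB.self hNa, smul_zero, neg_zero]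
    simp only [map_add, map_smul, LinearMap.add_apply, LinearMap.smul_apply, smul_eq_mul]
    rw [c2]
    linear_combination κ * c1 + hκ'
  -- totally isotropic cyclic subspaces
  have iso2 : ∀ x, B x (g x) = 0 → B x (g (g x)) = 0 := by
    intro x hx
    have h1 : g (g x) = ε • g' x := by
      rw [pg', smul_smul, ← pow_two, hε, one_smul]
    rw [h1, map_smul, ← adj, alt_swap hB.self, hx, neg_zero, smul_zero]
  obtain ⟨x0, hx0⟩ : ∃ x0, N x0 ≠ 0 := by
    by_contra hc
    push Not at hc
    exact hN0 (LinearMap.ext hc)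
  obtain ⟨y0, hy0⟩ := hB.exists_ne hx0
  rw [hNa] at hy0
  obtain ⟨κ, hκ⟩ := fix x0 y0 hy0
  set x := x0 + κ • (g - g') y0 with hx
  have hNx : N x ≠ 0 := by
    rw [hx, map_add, map_smul, pND, smul_zero, add_zero]
    exact hx0
  have hxx := iso2 x hκ
  -- the dual vector
  have hnx : ∀ v, (g - ε • 1) ((g - ε • 1) v) = ε • N v := by
    intro v
    simp only [LinearMap.sub_apply, LinearMap.smul_apply, Module.End.one_apply, map_sub, map_smul]
    rw [p2 v]
    have : ε • N v + (2 * ε) • g v - v - ε • g v - ε • (g v - ε • v) = ε • N v + (ε ^ 2 - 1) • v := by module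
    rw [this, hε, sub_self, zero_smul, add_zero]
  have hxs : x ∉ Submodule.span F ({g x, g (g x)} : Set V) := by
    intro h
    obtain ⟨a, b, hab⟩ := Submodule.mem_span_pair.1 h
    have h1 : (1 - a * ε - b) • N x = 0 := by
      have := congrArg N hab
      rw [map_add, map_smul, map_smul, pN, pN, pN, smul_smul, smul_smul, smul_smul, ← add_smul] at this
      have h5 : (1 - a * ε - b) • N x = N x - (a * ε + b * ε * ε) • N x := by
        rw [show b * ε * ε = b by rw [mul_assoc, ← pow_two, hε, mul_one]]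
        module
      rw [h5, this, sub_self]
    have h4 : 1 - a * ε - b = 0 := (smul_eq_zero.1 h1).resolve_right hNx
    set n := g - ε • (1 : End F V) with hn
    have hng : ∀ v, n (g v) = g (n v) := by
      intro v
      simp [hn]
    have hgn : ∀ v, g v = n v + ε • v := by
      intro v
      simp [hn]
    have hnn : n (N x) = 0 := by
      rw [hn, LinearMap.sub_apply, LinearMap.smul_apply, Module.End.one_apply, pN', sub_self]
    -- `x = a g x + b g² x` in terms of `x, n x, n² x`
    have h5 : (- a - 2 * b * ε) • n x - b • (ε • N x) = 0 := by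
      have h6 : a • g x + b • g (g x) - x = (a * ε + b * ε ^ 2 - 1) • x + (a + 2 * b * ε) • n x + b • (n (n x)) := by
        rw [hgn (g x), hng, hgn (n x), hgn x]
        module
      rw [hab, sub_self, hnx x, hε] at h6
      have h7 : a * ε + b * 1 - 1 = 0 := by linear_combination -h4
      rw [h7, zero_smul, zero_add] at h6
      have h8 : (- a - 2 * b * ε) • n x - b • (ε • N x) = - ((a + 2 * b * ε) • n x + b • (ε • N x)) := by module
      rw [h8, ← h6, neg_zero]
    have h6 : - a - 2 * b * ε = 0 := by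
      have h7 := congrArg n h5
      rw [map_sub, map_smul, map_smul, map_smul, hnn, smul_zero, smul_zero, sub_zero, map_zero, hnx, smul_smul] at h7
      exact (mul_eq_zero.1 ((smul_eq_zero.1 h7).resolve_right hNx)).resolve_right hε0
    rw [h6, zero_smul, zero_sub, neg_eq_zero, smul_smul] at h5
    have h7 : b = 0 := (mul_eq_zero.1 ((smul_eq_zero.1 h5).resolve_right hNx)).resolve_right hε0
    rw [h7] at h6 h4
    have h8 : a = 0 := by linear_combination -h6
    rw [h8] at h4
    simp at h4
  obtain ⟨φ, hφ1, hφ2⟩ := Submodule.exists_dual_map_eq_bot_of_notMem hxs inferInstance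
  obtain ⟨y2, hy2⟩ := exists_rep hB ((φ x)⁻¹ • φ)
  have hφ3 : ∀ v ∈ Submodule.span F ({g x, g (g x)} : Set V), φ v = 0 := by
    intro v hv
    have : φ v ∈ Submodule.map φ (Submodule.span F ({g x, g (g x)} : Set V)) := ⟨v, hv, rfl⟩
    rw [hφ2] at this
    exact (Submodule.mem_bot F).1 this
  have b0 : B x y2 = 1 := by rw [hy2, LinearMap.smul_apply, smul_eq_mul, inv_mul_cancel₀ hφ1]
  have b1 : B (g x) y2 = 0 := by
    have m1 : g x ∈ Submodule.span F ({g x, g (g x)} : Set V) := Submodule.subset_span (Set.mem_insert _ _)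
    rw [hy2, LinearMap.smul_apply, hφ3 _ m1, smul_zero]
  have b2 : B (g (g x)) y2 = 0 := by
    have m1 : g (g x) ∈ Submodule.span F ({g x, g (g x)} : Set V) :=
      Submodule.subset_span (Set.mem_insert_of_mem _ (Set.mem_singleton _))
    rw [hy2, LinearMap.smul_apply, hφ3 _ m1, smul_zero]
  have b1' : B (g' x) y2 = 0 := by rw [pg', map_smul, LinearMap.smul_apply, b2, smul_zero]
  have hy2N : B y2 (N x) ≠ 0 := by
    have h1 : N x = g x + g' x - (2 * ε) • x := by rw [pS]; abel
    rw [alt_swap hB.self, h1, map_sub, map_add, map_smul, LinearMap.sub_apply, LinearMap.add_apply, LinearMap.smul_apply, b0, b1, b1',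
      add_zero, zero_sub, neg_neg, smul_eq_mul, mul_one]
    exact mul_ne_zero h2 hε0
  obtain ⟨κ', hκ'⟩ := fix y2 x hy2N
  set y := y2 + κ' • (g - g') x with hy
  have hyy := iso2 y hκ'
  -- Gram matrices
  have B11 : ∀ u v, B (g u) (g v) = B u v := fun u v => by rw [adj, pg'g]
  have B10 : ∀ u v, B (g u) v = ε * B u (g (g v)) := fun u v => by rw [adj, pg', map_smul, smul_eq_mul]
  have B20 : ∀ u v, B (g (g u)) v = ε * B u (g v) := fun u v => by
    rw [B10, B11]
  have hgx : B x (g x) = 0 := hκ
  have hgy : B y (g y) = 0 := hκ'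
  have a0 : B x y = 1 := by
    rw [hy, map_add, map_smul, b0, LinearMap.sub_apply, map_sub, hgx, pg', map_smul, hxx, smul_zero, sub_zero, smul_zero, add_zero]
  have a1 : B x (g y) = 0 := by
    have h1 : B (g (g x)) y = 0 := by
      rw [hy, map_add, b2, map_smul, LinearMap.sub_apply, map_sub, B11, alt_swap hB.self (g x) x, hgx, pg', map_smul, hB.self, smul_zero, neg_zero, sub_zero,
        smul_zero, add_zero]
    rw [B20] at h1
    exact (mul_eq_zero.1 h1).resolve_left hε0
  have a2 : B x (g (g y)) = 0 := by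
    have h1 : B (g x) y = 0 := by
      rw [hy, map_add, b1, map_smul, LinearMap.sub_apply, map_sub, hB.self, pg', map_smul, B11, hgx, smul_zero, sub_zero,
        smul_zero, add_zero]
    rw [B10] at h1
    exact (mul_eq_zero.1 h1).resolve_left hε0
  let w : Fin 3 → V := ![x, g x, g (g x)]
  let u : Fin 3 → V := ![y, g y, g (g y)]
  have gram : ∀ (x y : V) (a : F), B x y = a → B x (g y) = 0 → B x (g (g y)) = 0 → ∀ i j : Fin 3,
      B ((![x, g x, g (g x)] : Fin 3 → V) i) ((![y, g y, g (g y)] : Fin 3 → V) j) = if i = j then a else 0 := by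
    intro x y a h0 h1 h4 i j
    fin_cases i <;> fin_cases j <;>
      simp [B11, B10, B20, h0, h1, h4, p3]
  have hww : ∀ i j, B (w i) (w j) = 0 := by
    intro i j
    have := gram x x 0 (hB.self x) hgx hxx i j
    rw [this]; split_ifs <;> rfl
  have huu : ∀ i j, B (u i) (u j) = 0 := by
    intro i j
    have := gram y y 0 (hB.self y) hgy hyy i j
    rw [this]; split_ifs <;> rfl
  have hwu : ∀ i j, B (w i) (u j) = if i = j then 1 else 0 := fun i j => gram x y 1 a0 a1 a2 i j
  have hcomp := complete hB hdim hww huu hwu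
  let e : End F V := (B.flip (u 1)).smulRight (w 1) + (B (w 1)).smulRight (u 1) - (B.flip (u 2)).smulRight (w 2)
    - (B (w 2)).smulRight (u 2)
  have he : ∀ v, e v = B v (u 1) • w 1 + B (w 1) v • u 1 - B v (u 2) • w 2 - B (w 2) v • u 2 := fun v => rfl
  refine ⟨e, ?_, ?_, ?_⟩
  · intro p q
    rw [he, he]
    simp only [map_add, map_sub, map_smul, LinearMap.add_apply, LinearMap.sub_apply, LinearMap.smul_apply, smul_eq_mul]
    rw [alt_swap hB.self q (u 1), alt_swap hB.self q (u 2), alt_swap hB.self (w 1) p, alt_swap hB.self (w 2) p]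
    ring
  · apply LinearMap.ext
    intro v
    change e (g v) = g (e v) + g v
    have hv := hcomp v
    rw [Fin.sum_univ_three] at hv
    have w0 : g (w 0) = w 1 := rfl
    have w1 : g (w 1) = w 2 := rfl
    have w2 : g (w 2) = ε • w 0 := p3 x
    have u0 : g (u 0) = u 1 := rfl
    have u1 : g (u 1) = u 2 := rfl
    have u2 : g (u 2) = ε • u 0 := p3 y
    have h1 : g v = B v (u 0) • w 1 + B (w 0) v • u 1 + (B v (u 1) • w 2 + B (w 1) v • u 2)
        + ((ε * B v (u 2)) • w 0 + (ε * B (w 2) v) • u 0) := by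
      conv_lhs => rw [hv]
      simp only [map_add, map_smul, w0, w1, w2, u0, u1, u2, smul_smul, mul_comm]
    have h4 : e (g v) = B v (u 0) • w 1 + B (w 0) v • u 1 - B v (u 1) • w 2 - B (w 1) v • u 2 := by
      have k1 : B (g v) (u 1) = B v (u 0) := B11 v _
      have k2 : B (w 1) (g v) = B (w 0) v := B11 _ v
      have k3 : B (g v) (u 2) = B v (u 1) := B11 v _
      have k4 : B (w 2) (g v) = B (w 1) v := B11 _ v
      rw [he, k1, k2, k3, k4]
    have h5 : g (e v) = B v (u 1) • w 2 + B (w 1) v • u 2 - (ε * B v (u 2)) • w 0 - (ε * B (w 2) v) • u 0 := by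
      rw [he]
      simp only [map_add, map_sub, map_smul, w1, w2, u1, u2, smul_smul, mul_comm]
    rw [h4, h5, h1]
    have h6 : ∀ z : V, (3 : F) • z = 0 := fun z => by rw [h3, zero_smul]
    have h7 : B v (u 1) • w 2 + B (w 1) v • u 2 - (ε * B v (u 2)) • w 0 - (ε * B (w 2) v) • u 0 +
        (B v (u 0) • w 1 + B (w 0) v • u 1 + (B v (u 1) • w 2 + B (w 1) v • u 2) + ((ε * B v (u 2)) • w 0 + (ε * B (w 2) v) • u 0))
        = (B v (u 0) • w 1 + B (w 0) v • u 1 - B v (u 1) • w 2 - B (w 1) v • u 2)
          + (3 : F) • (B v (u 1) • w 2 + B (w 1) v • u 2) := by module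
    rw [h7, h6, add_zero]
  · have e1 : e (w 1) = w 1 := by rw [he]; simp [hwu, hww]
    have e2 : e (u 1) = u 1 := by rw [he]; simp [hwu, huu]
    have e3 : e (w 2) = - w 2 := by rw [he]; simp [hwu, hww]
    have e4 : e (u 2) = - u 2 := by rw [he]; simp [hwu, huu]
    apply LinearMap.ext
    intro v
    have h1 : (e ^ 3) v = e (e (e v)) := by
      rw [pow_succ, pow_two]; rfl
    rw [h1, he v]
    simp only [map_add, map_sub, map_smul, map_neg, e1, e2, e3, e4]
    module

end gen

end Cfsg.Agent.Cov44
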