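import Cfsg.Agent.Cov44.Sp6D

/-!
The elements of `Sp_6(3 ^ a)`, main case distinction.
-/

set_option autoImplicit false

namespace Cfsg.Agent.Cov44

open Polynomial Module Cfsg.Agent.Ore44

section gen

variable {F : Type*} [Field F] {V : Type*} [AddCommGroup V] [Module F V] {B : V →ₗ[F] V →ₗ[F] F}

theorem comm_aeval {S g : End F V} (h : S * g = g * S) (p : F[X]) : aeval S p * g = g * aeval S p := by
  induction p using Polynomial.induction_on with
  | C a => rw [aeval_C]; exact Algebra.commutes a g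
  | add p q hp hq => rw [map_add, mul_add, add_mul, hp, hq]
  | monomial n a hn =>
    rw [pow_succ, ← mul_assoc, map_mul (aeval S) (C a * X ^ n) X, aeval_X, mul_assoc, h, ← mul_assoc, hn, mul_assoc]

theorem isom_Sg' {g g' : End F V} (hg : Isom B g g') : (g + g') * g' = g' * (g + g') := by
  rw [add_mul, mul_add, hg.mul, hg.mul']

/-- reduction to a prime power -/
theorem prime_power [FiniteDimensional F V] (hdim : finrank F V = 6) (hB : Symp B) {g g' : End F V} (hg : Isom B g g') :
    Nd B g ∨ ∃ (f : F[X]) (k : ℕ), f.Monic ∧ Irreducible f ∧ aeval (g + g') (f ^ (k + 1)) = 0 ∧ aeval (g + g') (f ^ k) ≠ 0 := by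
  classical
  haveI : Nontrivial V := Module.nontrivial_of_finrank_pos (R := F) (by omega)
  set S := g + g' with hS
  have hSg : S * g = g * S := isom_Sg hg
  have hSg' : S * g' = g' * S := isom_Sg' hg
  have hSa : Adj B S S := isom_sa hg
  have hint : IsIntegral F S := Algebra.IsIntegral.isIntegral S
  have hm0 : minpoly F S ≠ 0 := minpoly.ne_zero hint
  obtain ⟨f, hfm, hf, hfd⟩ := exists_monic_irreducible_factor (minpoly F S) (minpoly.not_isUnit F S)
  obtain ⟨n, r, hnr, hmr⟩ := WfDvdMonoid.max_power_factor hm0 hf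
  have hn0 : n ≠ 0 := by
    rintro rfl
    rw [pow_zero, one_mul] at hmr
    exact hnr (hmr ▸ hfd)
  have hfr : aeval S (f ^ n) * aeval S r = 0 := by rw [← map_mul, ← hmr, minpoly.aeval]
  have hcop : IsCoprime (f ^ n) r := (hf.coprime_iff_not_dvd.2 hnr).pow_left
  obtain ⟨a, b, hab⟩ := hcop
  have hone : ∀ v, v = aeval S (f ^ n) (aeval S a v) + aeval S (b * r) v := by
    intro v
    have h1 := congrArg (fun p => aeval S p v) hab
    simp only [map_add, map_mul, map_one, Module.End.one_apply, LinearMap.add_apply] at h1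
    conv_lhs => rw [← h1]
    congr 1
    · rw [Module.End.mul_apply, ← Module.End.mul_apply, ← Module.End.mul_apply, ← map_mul, ← map_mul, mul_comm]
    · rw [map_mul]
  set U := LinearMap.ker (aeval S (f ^ n)) with hU
  by_cases h1 : U = ⊤
  · right
    have hex : ∃ n, aeval S (f ^ n) = 0 := ⟨n, LinearMap.ker_eq_top.1 h1⟩
    have hne : Nat.find hex ≠ 0 := by
      intro h0
      have := Nat.find_spec hex
      rw [h0, pow_zero, map_one] at this
      exact one_ne_zero this
    refine ⟨f, Nat.find hex - 1, hfm, hf, ?_, Nat.find_min hex (by omega)⟩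
    have : Nat.find hex - 1 + 1 = Nat.find hex := by omega
    rw [this]
    exact Nat.find_spec hex
  · left
    apply nd_of_invariant (by omega) hB hg U ?_ ?_ h1 ?_ ?_
    · intro u hu huU
      apply hB.nd
      intro v
      rw [hone v, map_add]
      have e1 : B u (aeval S (f ^ n) (aeval S a v)) = 0 := by
        rw [← hSa.aeval, LinearMap.mem_ker.1 hu, map_zero, LinearMap.zero_apply]
      rw [e1, zero_add]
      apply huU
      rw [hU, LinearMap.mem_ker, ← Module.End.mul_apply, ← map_mul]
      have e2 : f ^ n * (b * r) = b * (f ^ n * r) := by ring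
      rw [e2, map_mul, map_mul, hfr, mul_zero, LinearMap.zero_apply]
    · intro h0
      have h4 : aeval S r = 0 := by
        have hinj := LinearMap.ker_eq_bot.1 h0
        apply LinearMap.ext
        intro v
        apply hinj
        rw [LinearMap.zero_apply, map_zero]
        exact LinearMap.congr_fun hfr v
      exact hnr (hfd.trans (minpoly.dvd F S h4))
    · intro x hx
      rw [hU, LinearMap.mem_ker] at hx ⊢
      rw [← Module.End.mul_apply, comm_aeval hSg, Module.End.mul_apply, hx, map_zero]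
    · intro x hx
      rw [hU, LinearMap.mem_ker] at hx ⊢
      rw [← Module.End.mul_apply, comm_aeval hSg', Module.End.mul_apply, hx, map_zero]

/-- cyclic vectors, when the minimal polynomial of `g + g⁻¹` is `(X - s) ^ 3` -/
theorem cyc_of {g g' : End F V} (hg : Isom B g g') {s : F} (hS : (g + g') ^ 3 = s ^ 3 • 1) [CharP F 3]
    {x : V} (hx : LinearMap.range (Phi (g + g') x (g x)) = ⊤) : Cyc g x := by
  have hgg' : Commute g g' := by rw [Commute, SemiconjBy, hg.mul, hg.mul']
  have hcube : g ^ 3 + g' ^ 3 = s ^ 3 • 1 := by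
    rw [← hS, hgg'.add_pow']
    have h30 : (3 : End F V) = 0 := three_end
    have : ∀ T : End F V, 3 • T = 0 := by
      intro T
      have : (3 : ℕ) • T = (3 : End F V) * T := by rw [nsmul_eq_mul]; rfl
      rw [this, h30, zero_mul]
    rw [Finset.Nat.sum_antidiagonal_succ, Finset.Nat.sum_antidiagonal_succ, Finset.Nat.sum_antidiagonal_succ]
    simp [Nat.choose, this]
    rw [add_comm]
  have h33 : g ^ 3 * g' ^ 3 = 1 := by rw [← hgg'.mul_pow, hg.mul, one_pow]
  -- `g' = s³ g² - g⁵`
  have hg' : g' = s ^ 3 • g ^ 2 - g ^ 5 := by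
    have h1 : s ^ 3 • g ^ 3 = g ^ 6 + 1 := by
      have : s ^ 3 • g ^ 3 = g ^ 3 * (s ^ 3 • 1) := by rw [mul_smul_comm, mul_one]
      rw [this, ← hcube, mul_add, h33, ← pow_add]
    have h2 : g' * (s ^ 3 • g ^ 3) = s ^ 3 • g ^ 2 := by
      rw [mul_smul_comm, pow_succ' g 2, ← mul_assoc, hg.mul', one_mul]
    have h3 : g' * g ^ 6 = g ^ 5 := by rw [pow_succ' g 5, ← mul_assoc, hg.mul', one_mul]
    rw [← h2, h1, mul_add, h3, mul_one]
    abel
  intro K hxK hK
  have hpow : ∀ (n : ℕ) (v : V), v ∈ K → (g ^ n) v ∈ K := by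
    intro n
    induction n with
    | zero => intro v hv; rw [pow_zero]; exact hv
    | succ n ih => intro v hv; rw [pow_succ]; exact ih _ (hK v hv)
  have hK' : ∀ v ∈ K, g' v ∈ K := by
    intro v hv
    rw [hg']
    exact K.sub_mem (K.smul_mem _ (hpow 2 v hv)) (hpow 5 v hv)
  have hSK : ∀ (p : F[X]) (v : V), v ∈ K → aeval (g + g') p v ∈ K := by
    intro p
    induction p using Polynomial.induction_on with
    | C a => intro v hv; rw [aeval_C]; exact K.smul_mem a hv
    | add p q hp hq => intro v hv; rw [map_add]; exact K.add_mem (hp v hv) (hq v hv)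
    | monomial n a hn =>
      intro v hv
      rw [pow_succ, ← mul_assoc, map_mul (aeval _) (C a * X ^ n) X, aeval_X]
      exact hn _ (K.add_mem (hK v hv) (hK' v hv))
  rw [eq_top_iff, ← hx]
  rintro _ ⟨⟨p, q⟩, rfl⟩
  rw [Phi_apply]
  exact K.add_mem (hSK p x hxK) (hSK q _ (hK x hxK))

theorem sub_cube [CharP F 3] {S : End F V} {s : F} (h : (S - s • 1) ^ 3 = 0) : S ^ 3 = s ^ 3 • 1 := by
  have h30 : (3 : End F V) = 0 := three_end
  have h1 : (S - s • 1) ^ 3 = S ^ 3 - s ^ 3 • 1 - 3 * (s • S ^ 2 - (s * s) • S) := by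
    have e1 : (S - s • 1) ^ 3 = (S - s • 1) * ((S - s • 1) * (S - s • 1)) := by noncomm_ring
    have e2 : (S - s • (1 : End F V)) * (S - s • 1) = S ^ 2 - (2 * s) • S + (s * s) • 1 := by
      simp only [sub_mul, mul_sub, smul_mul_assoc, mul_smul_comm, one_mul, mul_one, smul_smul]
      rw [pow_two]
      module
    rw [e1, e2]
    simp only [sub_mul, mul_sub, mul_add, smul_mul_assoc, mul_smul_comm, one_mul, mul_one, smul_smul]
    have e3 : S * S ^ 2 = S ^ 3 := (pow_succ' S 2).symm
    have e4 : S * S = S ^ 2 := (pow_two S).symm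
    have e5 : ∀ T : End F V, 3 * T = (3 : F) • T := fun T => by
      have : (3 : End F V) = algebraMap F (End F V) 3 := by rw [map_ofNat]
      rw [this, Algebra.algebraMap_eq_smul_one, smul_mul_assoc, one_mul]
    rw [e3, e4, e5, e5]
    module
  rw [h1, h30, zero_mul, sub_zero, sub_eq_zero] at h
  exact h

theorem case_one [Finite F] [FiniteDimensional F V] [CharP F 3] (hdim : finrank F V = 6) (hB : Symp B) {g g' : End F V} (hg : Isom B g g')
    {c : F} (hc : Irreducible (X ^ 3 - X - C c : F[X])) {f : F[X]} {k : ℕ} (hfm : f.Monic) (hf : Irreducible f)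
    (hk1 : aeval (g + g') (f ^ (k + 1)) = 0) {x : V} (hx : B x (aeval (g + g') (f ^ k) (g x)) ≠ 0) : Nd B g ∨ Ee B c g := by
  have h2 : (2 : F) ≠ 0 := two_ne
  have hSa : Adj B (g + g') (g + g') := isom_sa hg
  have hSg : (g + g') * g = g * (g + g') := isom_Sg hg
  have hSg' : (g + g') * g' = g' * (g + g') := isom_Sg' hg
  have hrad := Phi_rad h2 hB hSa hf hk1 hx
  have hfin := Phi_finrank h2 hB hSa hf hfm hk1 hx
  have pg : ∀ v, g (g v) = (g + g') (g v) - v := by
    intro v
    have : g' (g v) = v := LinearMap.congr_fun hg.mul' v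
    rw [LinearMap.add_apply, this, add_sub_cancel_right]
  by_cases htop : LinearMap.range (Phi (g + g') x (g x)) = ⊤
  · right
    rw [htop, finrank_top, hdim] at hfin
    have hkd : (k + 1) * f.natDegree = 3 := by omega
    have hcases : k + 1 = 1 ∧ f.natDegree = 3 ∨ k + 1 = 3 ∧ f.natDegree = 1 := by
      have : k + 1 ∣ 3 := ⟨_, hkd.symm⟩
      rcases (Nat.dvd_prime Nat.prime_three).1 this with h | h
      · left; refine ⟨h, ?_⟩; rw [h] at hkd; omega
      · right; refine ⟨h, ?_⟩; rw [h] at hkd; omega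
    rcases hcases with ⟨h1, h3⟩ | ⟨h1, h3⟩
    · have hcd : (X ^ 3 - X - C c : F[X]).natDegree = 3 := by compute_degree!
      obtain ⟨s, hs⟩ := exists_root_local hf hc (by rw [hcd, h3])
      have hfS : aeval (g + g') f = 0 := by rw [h1, pow_one] at hk1; exact hk1
      have h4 : aeval (aeval (g + g') s) (X ^ 3 - X - C c : F[X]) = 0 := by
        rw [← aeval_comp]
        obtain ⟨t, ht⟩ := hs
        rw [ht, map_mul, hfS, zero_mul]
      refine ⟨aeval (g + g') s, hSa.aeval s, ?_, Or.inl (comm_aeval hSg s)⟩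
      rw [map_sub, map_sub, aeval_X_pow, aeval_X, aeval_C, Algebra.algebraMap_eq_smul_one, sub_eq_zero, sub_eq_iff_eq_add] at h4
      rw [h4, add_comm]
    · have hf1 : f = X + C (f.coeff 0) := hfm.eq_X_add_C h3
      have hS3 : (g + g') ^ 3 = (-(f.coeff 0)) ^ 3 • 1 := by
        apply sub_cube
        rw [h1, map_pow, hf1, map_add, aeval_X, aeval_C, Algebra.algebraMap_eq_smul_one] at hk1
        rw [neg_smul, sub_neg_eq_add]
        exact hk1
      have hcyc := cyc_of hg hS3 htop
      obtain ⟨e, he, heg, α, hα⟩ := cyc_e hB hg hdim hS3 hcyc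
      exact ee_of hg he heg hα hS3 c
  · left
    apply nd_of_invariant (by omega) hB hg _ hrad ?_ htop ?_ ?_
    · intro h0
      have h1 : x ∈ LinearMap.range (Phi (g + g') x (g x)) := ⟨(1, 0), by
        rw [Phi_apply, map_one, map_zero, LinearMap.zero_apply, add_zero]; rfl⟩
      rw [h0, Submodule.mem_bot] at h1
      rw [h1, map_zero, LinearMap.zero_apply] at hx
      exact hx rfl
    · rintro _ ⟨⟨p, q⟩, rfl⟩
      refine ⟨(-q, p + X * q), ?_⟩
      rw [Phi_apply, Phi_apply, map_add g]
      have e1 : g (aeval (g + g') p x) = aeval (g + g') p (g x) := (LinearMap.congr_fun (comm_aeval hSg p) x).symm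
      have e2 : g (aeval (g + g') q (g x)) = aeval (g + g') (X * q) (g x) - aeval (g + g') q x := by
        have : g (aeval (g + g') q (g x)) = aeval (g + g') q (g (g x)) := (LinearMap.congr_fun (comm_aeval hSg q) (g x)).symm
        rw [this, pg, map_sub, mul_comm X q, map_mul, aeval_X]
        rfl
      rw [e1, e2, map_neg, map_add, LinearMap.neg_apply, LinearMap.add_apply]
      abel
    · rintro _ ⟨⟨p, q⟩, rfl⟩
      refine ⟨(X * p + q, -p), ?_⟩
      rw [Phi_apply, Phi_apply, map_add g']
      have e1 : g' (aeval (g + g') p x) = aeval (g + g') (X * p) x - aeval (g + g') p (g x) := by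
        have : g' (aeval (g + g') p x) = aeval (g + g') p (g' x) := (LinearMap.congr_fun (comm_aeval hSg' p) x).symm
        rw [this, mul_comm X p, map_mul, aeval_X, Module.End.mul_apply, ← map_sub]
        congr 1
        rw [LinearMap.add_apply]; abel
      have e2 : g' (aeval (g + g') q (g x)) = aeval (g + g') q x := by
        have : g' (aeval (g + g') q (g x)) = aeval (g + g') q (g' (g x)) := (LinearMap.congr_fun (comm_aeval hSg' q) (g x)).symm
        rw [this]
        have : g' (g x) = x := LinearMap.congr_fun hg.mul' x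
        rw [this]
      rw [e1, e2, map_neg, map_add, LinearMap.neg_apply, LinearMap.add_apply]
      abel

theorem case_two [Finite F] [FiniteDimensional F V] [CharP F 3] (hdim : finrank F V = 6) (hB : Symp B) {g g' : End F V} (hg : Isom B g g')
    {c : F} {f : F[X]} {k : ℕ} (hfm : f.Monic) (hf : Irreducible f)
    (hk1 : aeval (g + g') (f ^ (k + 1)) = 0) (hk0 : aeval (g + g') (f ^ k) ≠ 0)
    (hx : ∀ x, B x (aeval (g + g') (f ^ k) (g x)) = 0) : Nd B g ∨ Ee B c g := by
  haveI : Nontrivial V := Module.nontrivial_of_finrank_pos (R := F) (by omega)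
  have h3 : (3 : F) = 0 := by exact_mod_cast CharP.cast_eq_zero F 3
  have h2 : (2 : F) ≠ 0 := two_ne
  have hSa : Adj B (g + g') (g + g') := isom_sa hg
  have hSg : (g + g') * g = g * (g + g') := isom_Sg hg
  have hSg' : (g + g') * g' = g' * (g + g') := isom_Sg' hg
  -- `f ^ k (S) Δ = 0`
  have hT : aeval (g + g') (f ^ k) * (g - g') = 0 := by
    have h1 : ∀ x y, B x ((aeval (g + g') (f ^ k) * g) y) = B x ((g' * aeval (g + g') (f ^ k)) y) := by
      intro x y
      have h4 := hx (x + y)
      simp only [map_add, LinearMap.add_apply] at h4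
      have h5 := hx x
      have h6 := hx y
      have hadj : Adj B (aeval (g + g') (f ^ k) * g) (g' * aeval (g + g') (f ^ k)) := (hSa.aeval _).mul hg.adj
      rw [← hadj x y, alt_swap hB.self _ y]
      change B x (aeval (g + g') (f ^ k) (g y)) = - B y (aeval (g + g') (f ^ k) (g x))
      linear_combination h4 - h5 - h6
    have h4 : aeval (g + g') (f ^ k) * g = g' * aeval (g + g') (f ^ k) := by
      apply LinearMap.ext
      intro y
      rw [← sub_eq_zero]
      apply hB.nd'
      intro x
      rw [map_sub, h1, sub_self]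
    rw [mul_sub, h4, comm_aeval hSg', sub_self]
  have hT2 : aeval (g + g') (f ^ k * ((X - C 2) * (X + C 2))) = 0 := by
    rw [map_mul]
    have h1 : aeval (g + g') ((X - C 2) * (X + C 2) : F[X]) = (g - g') * (g - g') := by
      rw [isom_sq hg, map_mul, map_sub, map_add, aeval_X, aeval_C]
      have e4 : algebraMap F (End F V) 2 = 2 := by rw [map_ofNat]
      rw [e4, sub_mul, mul_add (g + g') (g + g') 2, mul_add 2 (g + g') 2, mul_two (g + g'), two_mul (g + g')]
      have e5 : (2 : End F V) * 2 = 4 := by norm_num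
      rw [e5]
      abel
    rw [h1, ← mul_assoc, hT, zero_mul]
  have hdvd : f ∣ (X - C 2) * (X + C 2) := by
    have h1 := pol_min hf hk1 hk0 hT2
    rw [pow_succ] at h1
    exact (mul_dvd_mul_iff_left (pow_ne_zero k hf.ne_zero)).1 h1
  obtain ⟨ε, hε, hfe⟩ : ∃ ε : F, ε ^ 2 = 1 ∧ f = X - C (2 * ε) := by
    rcases hf.prime.dvd_or_dvd hdvd with h | h
    · refine ⟨1, one_pow _, ?_⟩
      rw [mul_one]
      exact eq_of_monic_of_associated hfm (monic_X_sub_C 2) (hf.associated_of_dvd (irreducible_X_sub_C (2 : F)) h)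
    · refine ⟨-1, by ring, ?_⟩
      have e1 : (X - C (2 * -1) : F[X]) = X + C 2 := by rw [mul_neg, mul_one, map_neg, sub_neg_eq_add]
      rw [e1]
      have h5 : Irreducible (X + C (2 : F)) := by
        have := irreducible_X_sub_C (-(2 : F))
        rwa [map_neg, sub_neg_eq_add] at this
      exact eq_of_monic_of_associated hfm (monic_X_add_C 2) (hf.associated_of_dvd h5 h)
  set N : End F V := (g + g') - (2 * ε) • 1 with hN
  have hfN : ∀ j : ℕ, aeval (g + g') (f ^ j) = N ^ j := by
    intro j
    rw [map_pow, hfe, map_sub, aeval_X, aeval_C, Algebra.algebraMap_eq_smul_one]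
  have hNS : g + g' = N + (2 * ε) • 1 := by rw [hN]; abel
  have hNa : Adj B N N := by
    rw [hN]
    exact hSa.sub (Adj.one.smul _)
  have hk0' := hk0
  have hk1' := hk1
  rw [hfN] at hk1 hk0 hT
  rcases Nat.lt_or_ge k 2 with hk | hk
  · interval_cases k
    · left
      rw [pow_zero, one_mul, sub_eq_zero] at hT
      rw [zero_add, pow_one] at hk1
      rw [hk1, zero_add, ← hT] at hNS
      have h1 : g = ε • 1 := by
        rw [← two_smul F g, mul_smul] at hNS
        exact smul_right_injective _ h2 hNS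
      obtain ⟨x, hx0⟩ := exists_ne (0 : V)
      obtain ⟨y, hy⟩ := hB.exists_ne hx0
      refine ⟨x, y, hy, ?_, ?_⟩
      · rw [h1]
        exact Submodule.smul_mem _ _ (Submodule.subset_span (Set.mem_insert _ _))
      · rw [h1]
        exact Submodule.smul_mem _ _ (Submodule.subset_span (Set.mem_insert_of_mem _ (Set.mem_singleton _)))
    · right
      rw [pow_one] at hk0 hT
      have hN2 : N * N = 0 := by rw [← pow_two]; exact hk1
      obtain ⟨e, he, heg, he3⟩ := c2_e hB hdim hg hε hNS hk0 hN2 hT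
      have hS3 : (g + g') ^ 3 = (2 * ε) ^ 3 • 1 := by
        apply sub_cube
        rw [← hN, pow_succ, hk1, zero_mul]
      exact ee_of hg he heg (α := 0) (by rw [he3, zero_smul, add_zero]) hS3 c
  · exfalso
    obtain ⟨x, hx0⟩ : ∃ x, (N ^ k) x ≠ 0 := by
      by_contra hcon
      push Not at hcon
      exact hk0 (LinearMap.ext hcon)
    obtain ⟨y, hy⟩ := hB.exists_ne hx0
    have hNk : Adj B (N ^ k) (N ^ k) := by
      have := hSa.aeval (f ^ k)
      rwa [hfN] at this
    rw [hNk, ← hfN] at hy
    have hfin := Phi_finrank h2 hB hSa hf hfm hk1' hy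
    have hfd : f.natDegree = 1 := by rw [hfe]; exact natDegree_X_sub_C _
    have hle := Submodule.finrank_le (LinearMap.range (Phi (g + g') x y))
    rw [hfin, hfd, hdim] at hle
    have hk2 : k = 2 := by omega
    subst hk2
    have htop : LinearMap.range (Phi (g + g') x y) = ⊤ := by
      apply Submodule.eq_top_of_finrank_eq
      rw [hfin, hfd, hdim]
    have himg : ∀ v, ∃ w, (g - g') v = N w := by
      intro v
      have hv : (g - g') v ∈ LinearMap.range (Phi (g + g') x y) := by rw [htop]; trivial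
      obtain ⟨⟨p, q⟩, hpq⟩ := hv
      have h5 : Phi (g + g') x y (f ^ 2 * p, f ^ 2 * q) = 0 := by
        have h6 : Phi (g + g') x y (f ^ 2 * p, f ^ 2 * q) = (N ^ 2) (Phi (g + g') x y (p, q)) := by
          rw [Phi_apply, Phi_apply, map_mul, map_mul, hfN, map_add]
          rfl
        rw [h6, hpq]
        exact LinearMap.congr_fun hT v
      obtain ⟨h6, h7⟩ := (Phi_ker h2 hB hSa hf hk1' hy _ _).1 h5
      rw [pow_succ] at h6 h7
      obtain ⟨p1, hp1⟩ := (mul_dvd_mul_iff_left (pow_ne_zero 2 hf.ne_zero)).1 h6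
      obtain ⟨q1, hq1⟩ := (mul_dvd_mul_iff_left (pow_ne_zero 2 hf.ne_zero)).1 h7
      refine ⟨Phi (g + g') x y (p1, q1), ?_⟩
      rw [← hpq, hp1, hq1, Phi_apply, Phi_apply, map_mul, map_mul, map_add]
      have h8 : aeval (g + g') f = N := by
        have := hfN 1
        rwa [pow_one, pow_one] at this
      rw [h8]
      rfl
    have hNΔ : N * (g - g') = (g - g') * N := by
      rw [hN, sub_mul, mul_sub (g - g') (g + g'), isom_comm hg, smul_mul_assoc, mul_smul_comm, one_mul, mul_one]
    have h5 : N * ((g - g') * (g - g')) = 0 := by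
      apply LinearMap.ext
      intro v
      obtain ⟨w, hw⟩ := himg v
      change N ((g - g') ((g - g') v)) = 0
      rw [hw]
      have : N ((g - g') (N w)) = (N ^ 2 * (g - g')) w := by
        rw [pow_two, mul_assoc, hNΔ]; rfl
      rw [this, hT, LinearMap.zero_apply]
    rw [isom_sq hg, hNS] at h5
    have h6 : N * ((N + (2 * ε) • 1) * (N + (2 * ε) • 1) - 4) = N ^ 3 + (4 * ε) • N ^ 2 := by
      have e4 : (4 : End F V) = (4 : F) • 1 := by
        have : (4 : End F V) = algebraMap F (End F V) 4 := by rw [map_ofNat]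
        rw [this, Algebra.algebraMap_eq_smul_one]
      rw [e4]
      simp only [add_mul, mul_sub, mul_add, smul_mul_assoc, mul_smul_comm, one_mul, mul_one, smul_smul]
      have e5 : N * (N * N) = N ^ 3 := by noncomm_ring
      have e6 : N * N = N ^ 2 := (pow_two N).symm
      rw [e5, e6]
      have e7 : N ^ 3 + (2 * ε) • N ^ 2 + (2 * ε) • (N ^ 2 + (2 * ε) • N) - (4 : F) • N =
          N ^ 3 + (4 * ε) • N ^ 2 + (4 * (ε ^ 2 - 1)) • N := by module
      rw [e7, hε, sub_self, mul_zero, zero_smul, add_zero]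
    rw [h6, hk1, zero_add] at h5
    have hε0 : ε ≠ 0 := by rintro rfl; simp at hε
    have h40 : (4 : F) ≠ 0 := by
      intro h
      apply h2
      linear_combination 2 * h - 2 * h3
    exact hk0 ((smul_eq_zero.1 h5).resolve_left (mul_ne_zero h40 hε0))

theorem main_case [Finite F] [FiniteDimensional F V] [CharP F 3] (hdim : finrank F V = 6) (hB : Symp B) {g g' : End F V} (hg : Isom B g g')
    {c : F} (hc : Irreducible (X ^ 3 - X - C c : F[X])) : Nd B g ∨ Ee B c g := by
  rcases prime_power hdim hB hg with h | ⟨f, k, hfm, hf, h1, h0⟩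
  · exact Or.inl h
  by_cases hx : ∃ x, B x (aeval (g + g') (f ^ k) (g x)) ≠ 0
  · obtain ⟨x, hx⟩ := hx
    exact case_one hdim hB hg hc hfm hf h1 hx
  · push Not at hx
    exact case_two hdim hB hg hfm hf h1 h0 hx

end gen

end Cfsg.Agent.Cov44
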