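import Cfsg.Agent.Cov44.Sp6E
import Cfsg.Agent.Cov44.Basic
import Cfsg.Agent.ClassSp.Simple
import Cfsg.Prelude.Def_Classical

/-!
`PSp_6(3 ^ a)` is covered by the conjugates of two proper subgroups.
-/

set_option autoImplicit false

namespace Cfsg.Agent.Cov44

open Polynomial Module Cfsg.Agent.Ore44

section gen

variable {F : Type*} [Field F] {V : Type*} [AddCommGroup V] [Module F V] {B : V →ₗ[F] V →ₗ[F] F}

/-- a normalised pair of generators -/
theorem exists_gen [FiniteDimensional F V] (hB : Symp B) (hdim : finrank F V = 6) {h : F[X]} (hh : Irreducible h)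
    (hm : h.Monic) (hd : h.natDegree = 3) {e : End F V} (he0 : aeval e h = 0) :
    ∃ x y : V, ∀ p : F[X], B (aeval e p x) y = (p %ₘ h).coeff 0 := by
  haveI : Nontrivial V := Module.nontrivial_of_finrank_pos (R := F) (by omega)
  obtain ⟨x, hx0⟩ := exists_ne (0 : V)
  have hann : ∀ q : F[X], aeval e q x = 0 → h ∣ q := by
    intro q hq
    by_contra hc
    obtain ⟨a, b, hab⟩ := bez (k := 0) hh (by rwa [zero_add, pow_one])
    rw [pow_zero, zero_add, pow_one] at hab
    apply hx0
    have h1 := congrArg (fun p => aeval e p x) hab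
    simp only [map_one, map_add, map_mul, he0, mul_zero, add_zero, Module.End.one_apply, Module.End.mul_apply, hq, map_zero] at h1
    exact h1
  have hxs : x ∉ Submodule.span F ({e x, e (e x)} : Set V) := by
    intro hx
    obtain ⟨a, b, hab⟩ := Submodule.mem_span_pair.1 hx
    have h1 : aeval e (C b * X ^ 2 + C a * X - 1 : F[X]) x = 0 := by
      simp only [map_sub, map_add, map_mul, aeval_C, aeval_X_pow, aeval_X, map_one, LinearMap.sub_apply, LinearMap.add_apply,
        Module.End.mul_apply, Module.End.one_apply, Module.algebraMap_end_apply, pow_two]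
      rw [sub_eq_zero, add_comm]
      exact hab
    have h3 : (C b * X ^ 2 + C a * X - 1 : F[X]) = 0 := by
      apply Polynomial.eq_zero_of_dvd_of_natDegree_lt (hann _ h1)
      rw [hd]
      refine lt_of_le_of_lt (b := 2) ?_ (by norm_num)
      compute_degree
    have h4 := congrArg (fun q => q.coeff 0) h3
    simp at h4
  obtain ⟨φ, hφ1, hφ2⟩ := Submodule.exists_dual_map_eq_bot_of_notMem hxs inferInstance
  have hφ3 : ∀ v ∈ Submodule.span F ({e x, e (e x)} : Set V), φ v = 0 := by
    intro v hv
    have : φ v ∈ Submodule.map φ (Submodule.span F ({e x, e (e x)} : Set V)) := ⟨v, hv, rfl⟩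
    rw [hφ2] at this
    exact (Submodule.mem_bot F).1 this
  obtain ⟨y, hy⟩ := exists_rep hB ((φ x)⁻¹ • φ)
  refine ⟨x, y, fun p => ?_⟩
  have h1 : aeval e p x = aeval e (p %ₘ h) x := by
    conv_lhs => rw [← modByMonic_add_div p h]
    rw [map_add, map_mul, he0, zero_mul, add_zero]
  rw [h1]
  set q := p %ₘ h with hq
  have hqd : q.natDegree < 3 := by
    rw [← hd, hq]
    exact natDegree_modByMonic_lt p hm (by intro h; rw [h] at hd; simp at hd)
  have h3 : aeval e q x = q.coeff 0 • x + q.coeff 1 • e x + q.coeff 2 • e (e x) := by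
    conv_lhs => rw [q.as_sum_range' 3 hqd]
    rw [map_sum]
    simp only [Finset.sum_range_succ, Finset.sum_range_zero, zero_add, aeval_monomial, LinearMap.add_apply, Module.End.mul_apply,
      Module.algebraMap_end_apply, pow_zero, pow_one, pow_two, Module.End.one_apply]
  rw [h3, hy, LinearMap.smul_apply, map_add, map_add, map_smul, map_smul, map_smul,
    hφ3 (e x) (Submodule.subset_span (Set.mem_insert _ _)),
    hφ3 (e (e x)) (Submodule.subset_span (Set.mem_insert_of_mem _ (Set.mem_singleton _))), smul_zero, smul_zero, add_zero, add_zero,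
    smul_comm, smul_eq_mul, smul_eq_mul, inv_mul_cancel₀ hφ1, mul_one]

theorem conj_e [FiniteDimensional F V] (h2 : (2 : F) ≠ 0) (hB : Symp B) (hdim : finrank F V = 6) {h : F[X]} (hh : Irreducible h)
    (hm : h.Monic) (hd : h.natDegree = 3) {e e' : End F V} (he : Adj B e e) (he' : Adj B e' e') (he0 : aeval e h = 0)
    (he0' : aeval e' h = 0) : ∃ P : V →ₗ[F] V, (∀ x y, B (P x) (P y) = B x y) ∧ ∀ x, P (e x) = e' (P x) := by
  obtain ⟨x, y, hxy⟩ := exists_gen hB hdim hh hm hd he0
  obtain ⟨x', y', hxy'⟩ := exists_gen hB hdim hh hm hd he0'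
  have hone : ((1 : F[X]) %ₘ h).coeff 0 = 1 := by
    rw [(modByMonic_eq_self_iff hm).2, coeff_one_zero]
    rw [degree_one, degree_eq_natDegree hm.ne_zero, hd]
    norm_num
  have hb : B x (aeval e (h ^ 0) y) ≠ 0 := by
    have := hxy 1
    rw [map_one, hone] at this
    rw [pow_zero, map_one]
    change B x y ≠ 0
    change B x y = 1 at this
    rw [this]
    exact one_ne_zero
  have hb' : B x' (aeval e' (h ^ 0) y') ≠ 0 := by
    have := hxy' 1
    rw [map_one, hone] at this
    rw [pow_zero, map_one]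
    change B x' y' ≠ 0
    change B x' y' = 1 at this
    rw [this]
    exact one_ne_zero
  have k1 : aeval e (h ^ (0 + 1)) = 0 := by rw [zero_add, pow_one]; exact he0
  have k1' : aeval e' (h ^ (0 + 1)) = 0 := by rw [zero_add, pow_one]; exact he0'
  have hker := Phi_ker h2 hB he hh k1 hb
  have hker' := Phi_ker h2 hB he' hh k1' hb'
  have htop : LinearMap.range (Phi e x y) = ⊤ := by
    apply Submodule.eq_top_of_finrank_eq
    rw [Phi_finrank h2 hB he hh hm k1 hb, hd, hdim]
  obtain ⟨r, hr⟩ := (Phi e x y).exists_rightInverse_of_surjective htop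
  have hP : ∀ m, ((Phi e' x' y') ∘ₗ r) (Phi e x y m) = Phi e' x' y' m := by
    intro m
    rw [LinearMap.comp_apply, ← sub_eq_zero, ← map_sub]
    have h1 : Phi e x y (r (Phi e x y m) - m) = 0 := by
      rw [map_sub, sub_eq_zero]
      exact LinearMap.congr_fun hr _
    set z := r (Phi e x y m) - m with hz
    obtain ⟨p, q⟩ := z
    exact (hker' p q).2 ((hker p q).1 h1)
  refine ⟨(Phi e' x' y') ∘ₗ r, ?_, ?_⟩
  · have key : ∀ (e : End F V) (he : Adj B e e) (x y : V) (hxy : ∀ p : F[X], B (aeval e p x) y = (p %ₘ h).coeff 0) (p q p' q' : F[X]),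
        B (Phi e x y (p, q)) (Phi e x y (p', q')) = ((q' * p) %ₘ h).coeff 0 - ((q * p') %ₘ h).coeff 0 := by
      intro e he x y hxy p q p' q'
      rw [Phi_apply, Phi_apply]
      simp only [map_add, LinearMap.add_apply]
      rw [sa_pol h2 hB he, sa_pol h2 hB he, alt_swap hB.self (aeval e q y), ← hxy, ← hxy, map_mul, map_mul, Module.End.mul_apply,
        Module.End.mul_apply, he.aeval q', he.aeval q]
      ring
    intro u v
    have hu : u ∈ LinearMap.range (Phi e x y) := by rw [htop]; trivial
    have hv : v ∈ LinearMap.range (Phi e x y) := by rw [htop]; trivial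
    obtain ⟨⟨p, q⟩, rfl⟩ := hu
    obtain ⟨⟨p', q'⟩, rfl⟩ := hv
    rw [hP, hP, key e he x y hxy, key e' he' x' y' hxy']
  · intro u
    have hu : u ∈ LinearMap.range (Phi e x y) := by rw [htop]; trivial
    obtain ⟨⟨p, q⟩, rfl⟩ := hu
    have h1 : ∀ (e : End F V) (x y : V), e (Phi e x y (p, q)) = Phi e x y (X * p, X * q) := by
      intro e x y
      rw [Phi_apply, Phi_apply, map_mul, map_mul, aeval_X, map_add]
      rfl
    rw [h1, hP, hP, h1]

end gen

theorem exists_as (F : Type*) [Field F] [Finite F] [CharP F 3] : ∃ c : F, Irreducible (X ^ 3 - X - C c : F[X]) := by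
  classical
  have h3 : (3 : F) = 0 := by exact_mod_cast CharP.cast_eq_zero F 3
  have hns : ¬ Function.Surjective (fun t : F => t ^ 3 - t) := by
    intro hs
    have hi : Function.Injective (fun t : F => t ^ 3 - t) := Finite.injective_iff_surjective.2 hs
    have h1 : (fun t : F => t ^ 3 - t) 0 = (fun t : F => t ^ 3 - t) 1 := by
      change (0 : F) ^ 3 - 0 = 1 ^ 3 - 1
      ring
    exact zero_ne_one (hi h1)
  rw [Function.Surjective] at hns
  push Not at hns
  obtain ⟨c, hc⟩ := hns
  refine ⟨c, ?_⟩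
  have hd : (X ^ 3 - X - C c : F[X]).natDegree = 3 := by compute_degree!
  rw [Polynomial.irreducible_iff_roots_eq_zero_of_degree_le_three (by rw [hd]; norm_num) (by rw [hd])]
  rw [Multiset.eq_zero_iff_forall_notMem]
  intro t ht
  have hne : (X ^ 3 - X - C c : F[X]) ≠ 0 := by
    intro h; rw [h] at hd; simp at hd
  rw [mem_roots hne, IsRoot.def] at ht
  simp only [eval_sub, eval_pow, eval_X, eval_C] at ht
  exact hc t (sub_eq_zero.1 ht)

end Cfsg.Agent.Cov44
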