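import Cfsg.Agent.Cov44.Sp6F

/-!
`PSp_6(3 ^ a)` is covered by the conjugates of two proper subgroups.
-/

set_option autoImplicit false

namespace Cfsg.Agent.Cov44

open Polynomial Module Cfsg.Agent.ClassSp Matrix

section sp

variable {F : Type*} [Field F] {m : ℕ}

/-- the standard form, bilinear -/
noncomputable def sfB (F : Type*) [Field F] (m : ℕ) : (Fin m ⊕ Fin m → F) →ₗ[F] (Fin m ⊕ Fin m → F) →ₗ[F] F :=
  LinearMap.mk₂ F sf sf_add_left (fun c u v => by rw [sf_smul_left]; rfl) sf_add_right (fun c u v => by rw [sf_smul_right]; rfl)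

theorem sfB_apply (u v : Fin m ⊕ Fin m → F) : sfB F m u v = sf u v := rfl

theorem symp_sfB : Symp (sfB F m) where
  self x := sf_self x
  nd x h := by
    apply eq_zero_of_sf
    intro u
    rw [sf_swap]
    have := h u
    rw [sfB_apply] at this
    rw [this, neg_zero]

/-- the operator of a group element -/
noncomputable def op (g : symplecticGroup (Fin m) F) : End F (Fin m ⊕ Fin m → F) := Matrix.toLin' (g : Matrix _ _ F)

theorem op_apply (g : symplecticGroup (Fin m) F) (v : Fin m ⊕ Fin m → F) : op g v = (g : Matrix _ _ F) *ᵥ v := by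
  rw [op, Matrix.toLin'_apply]

theorem op_mul (g h : symplecticGroup (Fin m) F) : op (g * h) = op g * op h := by
  apply LinearMap.ext
  intro v
  rw [Module.End.mul_apply, op_apply, op_apply, op_apply, mul_mulVec]

theorem op_one : op (1 : symplecticGroup (Fin m) F) = 1 := by
  apply LinearMap.ext
  intro v
  rw [op_apply, one_mulVec']; rfl

theorem op_isom (g : symplecticGroup (Fin m) F) : Isom (sfB F m) (op g) (op g⁻¹) where
  mul := by rw [← op_mul, mul_inv_cancel, op_one]
  mul' := by rw [← op_mul, inv_mul_cancel, op_one]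
  adj := by
    intro x y
    rw [sfB_apply, sfB_apply, op_apply, op_apply, ← sf_mulVec g⁻¹ _ y, inv_mulVec_mulVec]
  adj' := by
    intro x y
    rw [sfB_apply, sfB_apply, op_apply, op_apply, ← sf_mulVec g _ y, mulVec_inv_mulVec]

/-- the standard plane -/
def P0 (F : Type*) [Field F] (m : ℕ) (hm : 0 < m) : Submodule F (Fin m ⊕ Fin m → F) :=
  Submodule.span F {Pi.single (Sum.inl ⟨0, hm⟩) 1, Pi.single (Sum.inr ⟨0, hm⟩) 1}

/-- its stabiliser -/
def HH [Finite F] (hm : 0 < m) : Subgroup (symplecticGroup (Fin m) F) where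
  carrier := {g | ∀ v ∈ P0 F m hm, op g v ∈ P0 F m hm}
  mul_mem' := by
    intro a b ha hb v hv
    rw [op_mul, Module.End.mul_apply]
    exact ha _ (hb _ hv)
  one_mem' := by
    intro v hv
    rw [op_one]; exact hv
  inv_mem' := by
    intro g hg
    have hp : ∀ k : ℕ, ∀ v ∈ P0 F m hm, op (g ^ k) v ∈ P0 F m hm := by
      intro k
      induction k with
      | zero => intro v hv; rw [pow_zero, op_one]; exact hv
      | succ k ih => intro v hv; rw [pow_succ, op_mul]; exact ih _ (hg v hv)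
    obtain ⟨n, hn, h1⟩ := isOfFinOrder_iff_pow_eq_one.1 (isOfFinOrder_of_finite g)
    have h2 : g⁻¹ = g ^ (n - 1) := by
      rw [inv_eq_iff_mul_eq_one, ← pow_succ', Nat.sub_add_cancel hn, h1]
    intro v hv
    rw [h2]
    exact hp _ v hv

theorem mem_HH [Finite F] (hm : 0 < m) {g : symplecticGroup (Fin m) F} : g ∈ HH hm ↔ ∀ v ∈ P0 F m hm, op g v ∈ P0 F m hm := Iff.rfl

/-- the normaliser of the field -/
def KK (e : End F (Fin m ⊕ Fin m → F)) : Subgroup (symplecticGroup (Fin m) F) where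
  carrier := {g | ∃ k : F, e * op g = op g * e + k • op g}
  mul_mem' := by
    rintro a b ⟨k, hk⟩ ⟨l, hl⟩
    refine ⟨k + l, ?_⟩
    rw [op_mul, ← mul_assoc, hk, add_mul, mul_assoc, hl, mul_add, smul_mul_assoc, mul_smul_comm, add_smul, mul_assoc]
    abel
  one_mem' := ⟨0, by rw [op_one, mul_one, one_mul, zero_smul, add_zero]⟩
  inv_mem' := by
    rintro a ⟨k, hk⟩
    refine ⟨-k, ?_⟩
    have h1 := (op_isom a).mul
    have h2 := (op_isom a).mul'
    have h3 : op a⁻¹ * (e * op a) * op a⁻¹ = op a⁻¹ * (op a * e + k • op a) * op a⁻¹ := by rw [hk]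
    have h4 : op a⁻¹ * (e * op a) * op a⁻¹ = op a⁻¹ * e := by rw [mul_assoc, mul_assoc, h1, mul_one]
    have h5 : op a⁻¹ * (op a * e + k • op a) * op a⁻¹ = e * op a⁻¹ + k • op a⁻¹ := by
      rw [mul_add, ← mul_assoc, h2, one_mul, add_mul, mul_smul_comm, h2, smul_mul_assoc, one_mul]
    rw [h4, h5] at h3
    rw [h3, add_assoc, ← add_smul, add_neg_cancel, zero_smul, add_zero]

theorem mem_KK {e : End F (Fin m ⊕ Fin m → F)} {g : symplecticGroup (Fin m) F} :
    g ∈ KK e ↔ ∃ k : F, e * op g = op g * e + k • op g := Iff.rfl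

theorem op_center {z : symplecticGroup (Fin m) F} (hz : z ∈ Subgroup.center (symplecticGroup (Fin m) F)) :
    ∃ a : F, op z = a • 1 := by
  obtain ⟨a, _, ha⟩ := mem_center_iff.1 hz
  refine ⟨a, LinearMap.ext fun v => ?_⟩
  rw [op_apply, ha]; rfl

theorem HH_ne_top [Finite F] (hm : 1 < m) : HH (F := F) (m := m) (by omega) ≠ ⊤ := by
  intro htop
  set w : Fin m ⊕ Fin m → F := Pi.single (Sum.inl ⟨0, by omega⟩) 1 + Pi.single (Sum.inl ⟨1, hm⟩) 1 with hw
  have h1 : tv w (1 : F) ∈ HH (F := F) (m := m) (by omega) := by rw [htop]; trivial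
  have h2 := h1 (Pi.single (Sum.inr ⟨0, by omega⟩) 1) (Submodule.subset_span (Set.mem_insert_of_mem _ (Set.mem_singleton _)))
  rw [op_apply, tv_mulVec, sf_single_inr_left] at h2
  have h3 : ∀ v ∈ P0 F m (by omega : 0 < m), v (Sum.inl ⟨1, hm⟩) = 0 := by
    intro v hv
    obtain ⟨a, b, rfl⟩ := Submodule.mem_span_pair.1 hv
    simp [Pi.single_apply, Fin.ext_iff]
  have h4 := h3 _ h2
  simp [hw, Pi.single_apply, Fin.ext_iff] at h4

theorem KK_ne_top (hm : 0 < m) {c : F} (hc : Irreducible (X ^ 3 - X - C c : F[X])) (h2 : (2 : F) ≠ 0)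
    {e : End F (Fin m ⊕ Fin m → F)}
    (he : Adj (sfB F m) e e) (hec : e ^ 3 = e + c • 1) : KK e ≠ ⊤ := by
  intro htop
  set w : Fin m ⊕ Fin m → F := Pi.single (Sum.inl ⟨0, hm⟩) 1 with hw
  have hw0 : w ≠ 0 := by
    intro h
    have := congrFun h (Sum.inl ⟨0, hm⟩)
    simp [hw] at this
  have h1 : tv w (1 : F) ∈ KK e := by rw [htop]; trivial
  obtain ⟨k, hk⟩ := h1
  have hk' : ∀ v, e (v + sf v w • w) = e v + sf (e v) w • w + k • (v + sf v w • w) := by
    intro v
    have := LinearMap.congr_fun hk v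
    simp only [Module.End.mul_apply, LinearMap.add_apply, LinearMap.smul_apply, op_apply, tv_mulVec, one_mul] at this
    exact this
  have hew : sf (e w) w = 0 := sa_self h2 (symp_sfB (F := F) (m := m)).self he w
  have hk0 : k = 0 := by
    have := hk' w
    rw [sf_self, zero_smul, add_zero, hew, zero_smul, add_zero] at this
    have h3 : k • w = 0 := by
      have h4 := congrArg (fun v => v - e w) this
      simp only [sub_self, add_sub_cancel_left] at h4
      exact h4.symm
    exact (smul_eq_zero.1 h3).resolve_right hw0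
  obtain ⟨v, hv⟩ := exists_sf_ne_zero hw0
  obtain ⟨μ, hμ⟩ : ∃ μ : F, e w = μ • w := by
    have := hk' v
    rw [hk0, zero_smul, add_zero, map_add, map_smul] at this
    have h3 : sf v w • e w = sf (e v) w • w := add_left_cancel this
    refine ⟨(sf v w)⁻¹ * sf (e v) w, ?_⟩
    rw [mul_smul, ← h3, smul_smul, inv_mul_cancel₀ hv, one_smul]
  have h3 : μ ^ 3 - μ - c = 0 := by
    have h4 := LinearMap.congr_fun hec w
    have h5 : (e ^ 3) w = e (e (e w)) := by rw [pow_succ, pow_two]; rfl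
    rw [h5, hμ, map_smul, hμ, map_smul, map_smul, hμ, LinearMap.add_apply, hμ, LinearMap.smul_apply, Module.End.one_apply] at h4
    have h6 : (μ ^ 3 - μ - c) • w = μ • μ • μ • w - (μ • w + c • w) := by module
    rw [h4, sub_self] at h6
    exact (smul_eq_zero.1 h6).resolve_right hw0
  have hroot : IsRoot (X ^ 3 - X - C c : F[X]) μ := by
    rw [IsRoot.def]
    simp only [eval_sub, eval_pow, eval_X, eval_C]
    exact h3
  have h5 := Polynomial.degree_eq_one_of_irreducible_of_root hc hroot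
  have hd : (X ^ 3 - X - C c : F[X]).natDegree = 3 := by compute_degree!
  have h6 : (X ^ 3 - X - C c : F[X]).natDegree = 1 := Polynomial.natDegree_eq_of_degree_eq_some h5
  omega

theorem conj_HH [Finite F] (hm : 0 < m) {g : symplecticGroup (Fin m) F} (h : Nd (sfB F m) (op g)) :
    ∃ x, x * g * x⁻¹ ∈ HH hm := by
  obtain ⟨x, y, hxy, hx, hy⟩ := h
  rw [sfB_apply] at hxy
  obtain ⟨t, -, ht1, ht2⟩ := exists_mem_tvGroup_pair (u := (sf x y)⁻¹ • x) (v := y)
    (u' := (Pi.single (Sum.inl ⟨0, hm⟩) 1 : Fin m ⊕ Fin m → F)) (v' := Pi.single (Sum.inr ⟨0, hm⟩) 1)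
    (by rw [sf_smul_left, inv_mul_cancel₀ hxy]) (by rw [sf_single_inl_left, Pi.single_eq_same])
  refine ⟨t, fun v hv => ?_⟩
  have e1 : op t x = sf x y • Pi.single (Sum.inl ⟨0, hm⟩) 1 := by
    rw [← ht1, op_apply, Matrix.mulVec_smul, smul_smul, mul_inv_cancel₀ hxy, one_smul]
  have e2 : op t y = Pi.single (Sum.inr ⟨0, hm⟩) 1 := by rw [op_apply, ht2]
  have hle : ∀ v ∈ Submodule.span F {x, y}, op t v ∈ P0 F m hm := by
    intro v hv
    obtain ⟨a, b, rfl⟩ := Submodule.mem_span_pair.1 hv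
    rw [map_add, map_smul, map_smul, e1, e2]
    exact Submodule.add_mem _ (Submodule.smul_mem _ _ (Submodule.smul_mem _ _ (Submodule.subset_span (Set.mem_insert _ _))))
      (Submodule.smul_mem _ _ (Submodule.subset_span (Set.mem_insert_of_mem _ (Set.mem_singleton _))))
  have hback : ∀ v ∈ P0 F m hm, op t⁻¹ v ∈ Submodule.span F {x, y} := by
    intro v hv
    have hinv : ∀ v, op t⁻¹ (op t v) = v := fun v => LinearMap.congr_fun (op_isom t).mul' v
    obtain ⟨a, b, rfl⟩ := Submodule.mem_span_pair.1 hv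
    have e3 : op t⁻¹ (Pi.single (Sum.inl ⟨0, hm⟩) 1) = (sf x y)⁻¹ • x := by
      have : op t ((sf x y)⁻¹ • x) = Pi.single (Sum.inl ⟨0, hm⟩) 1 := by rw [op_apply, ht1]
      rw [← this, hinv]
    have e4 : op t⁻¹ (Pi.single (Sum.inr ⟨0, hm⟩) 1) = y := by rw [← e2, hinv]
    rw [map_add, map_smul, map_smul, e3, e4]
    exact Submodule.add_mem _ (Submodule.smul_mem _ _ (Submodule.smul_mem _ _ (Submodule.subset_span (Set.mem_insert _ _))))
      (Submodule.smul_mem _ _ (Submodule.subset_span (Set.mem_insert_of_mem _ (Set.mem_singleton _))))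
  have hg : ∀ v ∈ Submodule.span F {x, y}, op g v ∈ Submodule.span F {x, y} := by
    intro v hv
    obtain ⟨a, b, rfl⟩ := Submodule.mem_span_pair.1 hv
    rw [map_add, map_smul, map_smul]
    exact Submodule.add_mem _ (Submodule.smul_mem _ _ hx) (Submodule.smul_mem _ _ hy)
  rw [op_mul, op_mul]
  exact hle _ (hg _ (hback v hv))

theorem conj_KK {e e0 : End F (Fin m ⊕ Fin m → F)} {P : End F (Fin m ⊕ Fin m → F)}
    (hP : ∀ x y, sfB F m (P x) (P y) = sfB F m x y) (hPe : ∀ x, P (e x) = e0 (P x)) {g : symplecticGroup (Fin m) F} {k : F}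
    (hg : e * op g = op g * e + k • op g) : ∃ x, x * g * x⁻¹ ∈ KK e0 := by
  have hP' : ∀ u v, sf (P u) (P v) = sf u v := hP
  refine ⟨ofLin P hP', k, ?_⟩
  set t := ofLin P hP' with ht
  have hopt : op t = P := by
    apply LinearMap.ext
    intro v
    rw [op_apply, ht, ofLin_mulVec]
  have h1 := (op_isom t).mul
  have h2 := (op_isom t).mul'
  have h3 : op t * e = e0 * op t := by
    rw [hopt]
    exact LinearMap.ext hPe
  have h4 : e * op t⁻¹ = op t⁻¹ * e0 := by
    calc e * op t⁻¹ = op t⁻¹ * (op t * e) * op t⁻¹ := by rw [← mul_assoc, h2, one_mul]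
      _ = op t⁻¹ * e0 := by rw [h3, mul_assoc, mul_assoc, h1, mul_one]
  rw [op_mul, op_mul]
  calc e0 * (op t * op g * op t⁻¹) = op t * (e * op g) * op t⁻¹ := by
        rw [← mul_assoc, ← mul_assoc, ← h3, mul_assoc (op t) e]
    _ = op t * op g * op t⁻¹ * e0 + k • (op t * op g * op t⁻¹) := by
        rw [hg, mul_add, add_mul, mul_smul_comm, smul_mul_assoc]
        congr 1
        rw [mul_assoc (op t * op g), ← h4]
        simp only [mul_assoc]

end sp

theorem cov_PSp6 {F : Type*} [Field F] [Fintype F] (a : ℕ) (ha : 1 ≤ a) (hF : Fintype.card F = 3 ^ a) :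
    Cov (Cfsg.PSp 3 F) := by
  haveI : CharP F 3 := by
    obtain ⟨p, hp⟩ := CharP.exists F
    haveI := hp
    obtain ⟨n, hpp, hn⟩ := FiniteField.card F p
    have : p = 3 := by
      rw [hF] at hn
      have h1 : p ∣ 3 ^ a := by rw [hn]; exact dvd_pow_self p n.2.ne'
      exact (Nat.prime_dvd_prime_iff_eq hpp Nat.prime_three).1 (hpp.dvd_of_dvd_pow h1)
    rw [← this]; exact hp
  have h2 : (2 : F) ≠ 0 := two_ne
  obtain ⟨c, hc⟩ := exists_as F
  have hdim : finrank F (Fin 3 ⊕ Fin 3 → F) = 6 := by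
    rw [finrank_fintype_fun_eq_card, Fintype.card_sum, Fintype.card_fin]
  have hcd : (X ^ 3 - X - C c : F[X]).natDegree = 3 := by compute_degree!
  have hcm : (X ^ 3 - X - C c : F[X]).Monic := by monicity!
  have hHc : Subgroup.center (symplecticGroup (Fin 3) F) ≤ HH (F := F) (m := 3) (by norm_num) := by
    intro z hz v hv
    obtain ⟨a, ha⟩ := op_center hz
    rw [ha]
    exact Submodule.smul_mem _ _ hv
  have hae : ∀ e : End F (Fin 3 ⊕ Fin 3 → F), e ^ 3 = e + c • 1 → aeval e (X ^ 3 - X - C c : F[X]) = 0 := by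
    intro e he
    rw [map_sub, map_sub, aeval_X_pow, aeval_X, aeval_C, Algebra.algebraMap_eq_smul_one, he]
    abel
  by_cases hex : ∃ e0 : End F (Fin 3 ⊕ Fin 3 → F), Adj (sfB F 3) e0 e0 ∧ e0 ^ 3 = e0 + c • 1
  · obtain ⟨e0, he0, he0c⟩ := hex
    refine cov_quot _ (HH (F := F) (m := 3) (by norm_num)) (KK e0) (HH_ne_top (by norm_num))
      (KK_ne_top (by norm_num) hc h2 he0 he0c) hHc ?_ ?_
    · intro z hz
      obtain ⟨a, ha⟩ := op_center hz
      refine ⟨0, ?_⟩
      rw [ha, mul_smul_comm, smul_mul_assoc, mul_one, one_mul, zero_smul, add_zero]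
    · intro g
      rcases main_case hdim symp_sfB (op_isom g) hc with h | ⟨e, he, hec, hg⟩
      · obtain ⟨x, hx⟩ := conj_HH (m := 3) (by norm_num) h
        exact ⟨x, Or.inl hx⟩
      · obtain ⟨P, hP, hPe⟩ := conj_e h2 symp_sfB hdim hc hcm hcd he he0 (hae e hec) (hae e0 he0c)
        have hk : ∃ k : F, e * op g = op g * e + k • op g := by
          rcases hg with h | h
          · exact ⟨0, by rw [h, zero_smul, add_zero]⟩
          · exact ⟨1, by rw [h, one_smul]⟩
        obtain ⟨k, hk⟩ := hk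
        obtain ⟨x, hx⟩ := conj_KK hP hPe hk
        exact ⟨x, Or.inr hx⟩
  · refine cov_quot _ (HH (F := F) (m := 3) (by norm_num)) (HH (F := F) (m := 3) (by norm_num)) (HH_ne_top (by norm_num))
      (HH_ne_top (by norm_num)) hHc hHc ?_
    intro g
    rcases main_case hdim symp_sfB (op_isom g) hc with h | ⟨e, he, hec, hg⟩
    · obtain ⟨x, hx⟩ := conj_HH (m := 3) (by norm_num) h
      exact ⟨x, Or.inl hx⟩
    · exact absurd ⟨e, he, hec⟩ hex

end Cfsg.Agent.Cov44
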